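import Mathlib
import Cfsg.Agent.Base
import Cfsg.Agent.Lib.LocStruct.Conj
import Cfsg.Agent.Lib.PGroup.Basic

/-!
# Elementary abelian TI-subgroups which are maximal abelian normal in their normalizer, I
-/

set_option autoImplicit false
set_option linter.unusedSectionVars false

namespace H23.TI

open Subgroup H69
open scoped commutatorElement

variable {G : Type*} [Group G]

/-- TI-subgroup -/
def IsTI (V : Subgroup G) : Prop := ∀ x : G, V ^ᶜ x = V ∨ V ^ᶜ x ⊓ V = ⊥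

theorem IsTI.eq_of_mem {V : Subgroup G} (h : IsTI V) {x y w : G} (hx : w ∈ V ^ᶜ x)
    (hy : w ∈ V ^ᶜ y) (hw : w ≠ 1) : V ^ᶜ x = V ^ᶜ y := by
  rcases h (y⁻¹ * x) with h1 | h1
  · have := congrArg (fun A => A ^ᶜ y) h1
    simpa only [cj_cj, mul_inv_cancel_left] using this
  · exfalso
    have : y⁻¹ * w * y ∈ V ^ᶜ (y⁻¹ * x) ⊓ V := by
      refine mem_inf.2 ⟨?_, mem_cj.1 hy⟩
      rw [mem_cj] at hx ⊢
      simpa [mul_assoc] using hx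
    rw [h1, mem_bot] at this
    apply hw
    calc w = y * (y⁻¹ * w * y) * y⁻¹ := by group
      _ = 1 := by rw [this]; group

theorem IsTI.cj {V : Subgroup G} (h : IsTI V) (g : G) : IsTI (V ^ᶜ g) := by
  intro x
  rw [cj_cj]
  by_cases h1 : V ^ᶜ (x * g) ⊓ V ^ᶜ g = ⊥
  · exact Or.inr h1
  · obtain ⟨w, hw, hw1⟩ := (Subgroup.bot_or_exists_ne_one _).resolve_left h1
    exact Or.inl (h.eq_of_mem hw.1 hw.2 hw1)

theorem IsTI.eq_one {V : Subgroup G} (h : IsTI V) {x w : G} (hne : V ^ᶜ x ≠ V)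
    (hx : w ∈ V ^ᶜ x) (hw : w ∈ V) : w = 1 := by
  have : w ∈ V ^ᶜ x ⊓ V := ⟨hx, hw⟩
  rwa [(h x).resolve_left hne, mem_bot] at this

theorem IsTI.mem_norm {V : Subgroup G} (h : IsTI V) {v y : G} (hv : v ∈ V) (hv1 : v ≠ 1)
    (hy : y * v * y⁻¹ ∈ V) : y ∈ 𝐍(V) := by
  rw [← cj_eq_self_iff]
  by_contra hne
  exact hv1 (conj_eq_one_iff.1 (h.eq_one hne (cj_mem y hv) hy))

theorem IsTI.mem_norm_of_comm {V : Subgroup G} (h : IsTI V) {v y : G} (hv : v ∈ V) (hv1 : v ≠ 1)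
    (hy : ⁅y, v⁆ = 1) : y ∈ 𝐍(V) := by
  refine h.mem_norm hv hv1 ?_
  rwa [commutatorElement_eq_one_iff_mul_comm.1 hy, mul_inv_cancel_right]

theorem cm_mul_left (x y z : G) : ⁅x * y, z⁆ = x * ⁅y, z⁆ * x⁻¹ * ⁅x, z⁆ := by
  simp only [commutatorElement_def]; group

theorem cm_mul_right (x y z : G) : ⁅x, y * z⁆ = ⁅x, y⁆ * (y * ⁅x, z⁆ * y⁻¹) := by
  simp only [commutatorElement_def]; group

theorem cm_conj (a x y : G) : a * ⁅x, y⁆ * a⁻¹ = ⁅a * x * a⁻¹, a * y * a⁻¹⁆ := by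
  simp only [commutatorElement_def]; group

theorem cm_mem_left {A : Subgroup G} {x y : G} (hx : x ∈ A) (hy : y ∈ 𝐍(A)) : ⁅x, y⁆ ∈ A := by
  have := A.mul_mem hx (conj_mem_of_mem_normalizer hy (A.inv_mem hx))
  simpa only [commutatorElement_def, mul_assoc] using this

theorem cm_mem_right {A : Subgroup G} {x y : G} (hx : x ∈ 𝐍(A)) (hy : y ∈ A) : ⁅x, y⁆ ∈ A :=
  A.mul_mem (conj_mem_of_mem_normalizer hx hy) (A.inv_mem hy)

theorem mem_cen_iff {A : Subgroup G} {x : G} : x ∈ 𝐂(A) ↔ ∀ a ∈ A, ⁅x, a⁆ = 1 := by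
  rw [mem_centralizer_iff_commute]
  exact forall₂_congr fun a _ => by rw [commutatorElement_eq_one_iff_mul_comm, eq_comm]

theorem mem_cen_iff' {A : Subgroup G} {x : G} : x ∈ 𝐂(A) ↔ ∀ a ∈ A, ⁅a, x⁆ = 1 := by
  rw [mem_centralizer_iff_commute]
  exact forall₂_congr fun a _ => by rw [commutatorElement_eq_one_iff_mul_comm]

theorem cm_symm {x y : G} (h : ⁅x, y⁆ = 1) : ⁅y, x⁆ = 1 := by
  rw [← commutatorElement_inv, h, inv_one]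

theorem conj_eq_of_cm {x y : G} (h : ⁅x, y⁆ = 1) : x * y * x⁻¹ = y := by
  rw [commutatorElement_eq_one_iff_mul_comm.1 h, mul_inv_cancel_right]

theorem cm_of_sq {x y : G} (hx : x * x = 1) (hy : y * y = 1) (h : x * y * (x * y) = 1) :
    ⁅x, y⁆ = 1 := by
  rw [commutatorElement_def, inv_eq_of_mul_eq_one_right hx, inv_eq_of_mul_eq_one_right hy, ← h]
  group

/-- `m` centralizes `V` and `x` modulo `V`: then `m²` centralizes `x`. -/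
theorem sq_cm {V : Subgroup G} (hsq : ∀ a ∈ V, a * a = 1) {m x : G} (hm : m ∈ 𝐂(V))
    (hx : ⁅m, x⁆ ∈ V) : ⁅m * m, x⁆ = 1 := by
  rw [cm_mul_left, conj_eq_of_mem_centralizer hm hx, hsq _ hx]

/-- a conjugate of an elementary abelian TI-subgroup normalizing it centralizes it -/
theorem IsTI.le_cen [Finite G] {V : Subgroup G} (h : IsTI V) (hsq : ∀ a ∈ V, a * a = 1)
    (hab : V ≤ 𝐂(V)) {g : G} (hne : V ^ᶜ g ≠ V) (hle : V ^ᶜ g ≤ 𝐍(V)) : V ^ᶜ g ≤ 𝐂(V) := by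
  have hsq' : ∀ a ∈ V ^ᶜ g, a * a = 1 := fun a ha => by
    obtain ⟨b, hb, rfl⟩ := mem_cj'.1 ha
    rw [conj_mul, hsq b hb]; group
  have k1 : ∀ x ∈ V ^ᶜ g, x ≠ 1 → ∀ v ∈ V, ⁅v, x⁆ = 1 → v ∈ 𝐂(V ^ᶜ g) := by
    intro x hx hx1 v hv hvx
    have hn := (h.cj g).mem_norm_of_comm hx hx1 hvx
    exact mem_cen_iff.2 fun a ha =>
      h.eq_one hne (cm_mem_right hn ha) (cm_mem_left hv (hle ha))
  have k2 : ∀ v ∈ V, ∀ x ∈ V ^ᶜ g, ⁅v, x⁆ ∈ V ⊓ 𝐂(V ^ᶜ g) := by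
    intro v hv x hx
    have hc := cm_mem_left hv (hle hx)
    refine ⟨hc, ?_⟩
    by_cases hx1 : x = 1
    · rw [hx1, commutatorElement_one_right]; exact one_mem _
    refine k1 x hx hx1 _ hc ?_
    have e1 : x * ⁅v, x⁆ * x⁻¹ = ⁅v, x⁆⁻¹ := by
      have := cm_mul_right v x x
      rw [hsq' x hx, commutatorElement_one_right] at this
      exact eq_inv_of_mul_eq_one_right this.symm
    rw [inv_eq_of_mul_eq_one_right (hsq _ hc)] at e1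
    refine cm_symm (commutatorElement_eq_one_iff_mul_comm.2 ?_)
    rw [← e1, inv_mul_cancel_right, e1]
  rw [le_centralizer_iff]
  intro v hv
  by_contra hv'
  let f : (V ^ᶜ g : Subgroup G) → (V ⊓ 𝐂(V ^ᶜ g) : Subgroup G) := fun x => ⟨⁅v, x⁆, k2 v hv x x.2⟩
  have hf : Function.Injective f := by
    intro x y e
    have e1 : ⁅v, (x : G)⁆ = ⁅v, (y : G)⁆ := congrArg Subtype.val e
    by_contra hxy
    refine hv' (k1 ((y : G)⁻¹ * x) (mul_mem (inv_mem y.2) x.2)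
      (fun h => hxy (Subtype.ext (inv_mul_eq_one.1 h).symm)) v hv ?_)
    calc ⁅v, (y : G)⁻¹ * x⁆ = v * (y : G)⁻¹ * v⁻¹ * ⁅v, (x : G)⁆ * y := by
          have h1 := (k2 v hv x x.2)
          have h2 := conj_eq_of_mem_centralizer (hab hv) h1.1
          calc ⁅v, (y : G)⁻¹ * x⁆ = v * (y : G)⁻¹ * (v⁻¹ * (v * x * v⁻¹ * (x : G)⁻¹)) * y := by
                simp only [commutatorElement_def]; group
            _ = _ := by simp only [commutatorElement_def]; group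
      _ = 1 := by rw [e1]; simp only [commutatorElement_def]; group
  have h1 := Nat.card_le_card_of_injective f hf
  rw [card_cj] at h1
  have h2 := eq_of_le_of_card_ge (inf_le_left : V ⊓ 𝐂(V ^ᶜ g) ≤ V) h1
  exact hv' (h2.ge hv).2

/-- The data extracted from the hypotheses: `P = C_Q(V)`. -/
structure Pk (V P : Subgroup G) : Prop where
  vsq : ∀ a ∈ V, a * a = 1
  ti : IsTI V
  le : V ≤ P
  cen : P ≤ 𝐂(V)
  nrm : 𝐍(V) ≤ 𝐍(P)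
  cm : ∀ x ∈ P, ∀ y ∈ P, ⁅x, y⁆ ∈ V
  sq : ∀ x ∈ P, x * x ∈ V
  stab : ∀ m ∈ 𝐂(V), (∀ x ∈ P, ⁅m, x⁆ ∈ V) → m ∈ P
  zp : ∀ z ∈ P, z ∈ 𝐂(P) → z ∈ V

theorem Pk.cj {V P : Subgroup G} (h : Pk V P) (g : G) : Pk (V ^ᶜ g) (P ^ᶜ g) where
  vsq a ha := by
    obtain ⟨b, hb, rfl⟩ := mem_cj'.1 ha
    rw [conj_mul, h.vsq b hb]; group
  ti := h.ti.cj g
  le := cj_mono g h.le
  cen := by rw [← cj_centralizer]; exact cj_mono g h.cen
  nrm := by rw [← cj_normalizer, ← cj_normalizer]; exact cj_mono g h.nrm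
  cm x hx y hy := by
    obtain ⟨a, ha, rfl⟩ := mem_cj'.1 hx
    obtain ⟨b, hb, rfl⟩ := mem_cj'.1 hy
    rw [← cm_conj]
    exact cj_mem g (h.cm a ha b hb)
  sq x hx := by
    obtain ⟨a, ha, rfl⟩ := mem_cj'.1 hx
    rw [conj_mul]
    exact cj_mem g (h.sq a ha)
  stab m hm hx := by
    rw [← cj_centralizer] at hm
    obtain ⟨a, ha, rfl⟩ := mem_cj'.1 hm
    refine cj_mem g (h.stab a ha fun x hx' => ?_)
    have := hx _ (cj_mem g hx')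
    rwa [← cm_conj, cj_mem_iff] at this
  zp z hz hz' := by
    rw [← cj_centralizer] at hz'
    rw [mem_cj] at hz hz' ⊢
    exact h.zp _ hz hz'

/-- the hypotheses of the theorem -/
structure Hyp (V Q : Subgroup G) : Prop where
  vsq : ∀ a ∈ V, a * a = 1
  ab : V ≤ 𝐂(V)
  ti : IsTI V
  two : IsPGroup 2 Q
  le : Q ≤ 𝐍(V)
  nrm : 𝐍(V) ≤ 𝐍(Q)
  core : ∀ N : Subgroup G, N ≤ 𝐍(V) → 𝐍(V) ≤ 𝐍(N) → IsPGroup 2 N → N ≤ Q
  cen : ∀ x ∈ 𝐍(V), x ∈ 𝐂(Q) → x ∈ Q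
  max : ∀ A : Subgroup G, V ≤ A → A ≤ 𝐍(V) → A ≤ 𝐂(A) → 𝐍(V) ≤ 𝐍(A) → A = V

/-- the centralizer of `A` modulo `D` -/
def rc (D A : Subgroup G) : Subgroup G where
  carrier := {x | x ∈ 𝐍(D) ∧ ∀ a ∈ A, ⁅x, a⁆ ∈ D}
  one_mem' := ⟨one_mem _, fun a _ => by simp⟩
  mul_mem' := fun {x y} hx hy => ⟨mul_mem hx.1 hy.1, fun a ha => by
    rw [cm_mul_left]
    exact D.mul_mem (conj_mem_of_mem_normalizer hx.1 (hy.2 a ha)) (hx.2 a ha)⟩
  inv_mem' := fun {x} hx => ⟨inv_mem hx.1, fun a ha => by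
    have : ⁅x⁻¹, a⁆ = x⁻¹ * ⁅x, a⁆⁻¹ * x := by
      simp only [commutatorElement_def]; group
    rw [this]
    exact conj_mem_of_mem_normalizer' hx.1 (D.inv_mem (hx.2 a ha))⟩

theorem le_norm_rc [Finite G] {L D A : Subgroup G} (h1 : L ≤ 𝐍(D)) (h2 : L ≤ 𝐍(A)) :
    L ≤ 𝐍(rc D A) := by
  refine le_normalizer_of_cj_le fun g hg x hx => ?_
  obtain ⟨y, hy, rfl⟩ := mem_cj'.1 hx
  refine ⟨mul_mem (mul_mem (h1 hg) hy.1) (inv_mem (h1 hg)), fun a ha => ?_⟩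
  have := conj_mem_of_mem_normalizer (h1 hg) (hy.2 _ (conj_mem_of_mem_normalizer' (h2 hg) ha))
  rw [cm_conj] at this
  simpa only [mul_assoc, mul_inv_cancel_left, mul_inv_cancel, mul_one] using this

namespace Hyp

variable [Finite G] {V Q : Subgroup G}

theorem isP (h : Hyp V Q) : IsPGroup 2 V :=
  isPGroup_iff_mem.2 fun x hx => ⟨1, by rw [pow_one, pow_two, h.vsq x hx]⟩

theorem VQ (h : Hyp V Q) : V ≤ Q := h.core V le_normalizer le_rfl h.isP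

theorem VP (h : Hyp V Q) : V ≤ Q ⊓ 𝐂(V) := le_inf h.VQ h.ab

theorem nP (h : Hyp V Q) : 𝐍(V) ≤ 𝐍((Q ⊓ 𝐂(V) : Subgroup G)) :=
  le_normalizer_inf h.nrm (normalizer_le_normalizer_centralizer V)

theorem zmax (h : Hyp V Q) {E : Subgroup G} (h1 : V ≤ E) (h2 : E ≤ 𝐂(V)) (h3 : 𝐍(V) ≤ 𝐍(E))
    {z : G} (hz : z ∈ E) (hz' : z ∈ 𝐂(E)) : z ∈ V := by
  have := h.max (E ⊓ 𝐂(E)) (le_inf h1 (le_centralizer_iff.1 h2))
    (inf_le_left.trans (h2.trans (centralizer_le_normalizer _)))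
    (inf_le_right.trans (centralizer_anti inf_le_left))
    (le_normalizer_inf h3 (le_normalizer_centralizer h3))
  exact this.le ⟨hz, hz'⟩

theorem cenE (h : Hyp V Q) {x : G} (hx : x ∈ Q ⊓ 𝐂(V))
    (hc : x ∈ 𝐂((Q ⊓ 𝐂(V) ⊓ rc V (Q ⊓ 𝐂(V)) : Subgroup G))) : x ∈ V := by
  haveI : Fact (Nat.Prime 2) := ⟨Nat.prime_two⟩
  set P := Q ⊓ 𝐂(V) with hP
  set E := P ⊓ rc V P with hE
  have hPM : P ≤ 𝐍(V) := inf_le_left.trans h.le
  have hnE : 𝐍(V) ≤ 𝐍(E) := le_normalizer_inf h.nP (le_norm_rc le_rfl h.nP)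
  by_contra hxV
  obtain ⟨n, hn, hnV, -, hn2⟩ := H5.exists_step_of_le (P := P) (h.two.to_le inf_le_left) V
    (N := P ⊓ 𝐂(E)) inf_le_left
    (hPM.trans (le_normalizer_inf h.nP (le_normalizer_centralizer hnE)))
    (fun h1 => hxV (h1 ⟨hx, hc⟩))
  refine hnV (h.zmax (E := E) (le_inf h.VP fun v hv => ⟨le_normalizer hv, fun a ha => ?_⟩)
    (inf_le_left.trans inf_le_right) hnE ⟨hn.1, hPM hn.1, hn2⟩ hn.2)
  exact cm_mem_left hv (hPM ha)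

theorem pk (h : Hyp V Q) : Pk V (Q ⊓ 𝐂(V)) := by
  have hPM : Q ⊓ 𝐂(V) ≤ 𝐍(V) := inf_le_left.trans h.le
  have zp : ∀ z ∈ Q ⊓ 𝐂(V), z ∈ 𝐂((Q ⊓ 𝐂(V) : Subgroup G)) → z ∈ V := fun z hz hz' =>
    h.zmax h.VP inf_le_right h.nP hz hz'
  have e1 : ∀ x ∈ Q ⊓ 𝐂(V), ∀ e ∈ Q ⊓ 𝐂(V) ⊓ rc V (Q ⊓ 𝐂(V)), ⁅x, e⁆ ∈ V := fun x hx e he => by
    rw [← commutatorElement_inv]; exact V.inv_mem (he.2.2 x hx)
  have hsq : ∀ x ∈ Q ⊓ 𝐂(V), x * x ∈ V := fun x hx =>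
    h.cenE (mul_mem hx hx) (mem_cen_iff.2 fun e he => sq_cm h.vsq hx.2 (e1 x hx e he))
  refine ⟨h.vsq, h.ti, h.VP, inf_le_right, h.nP, fun x hx y hy => ?_, hsq, fun m hm hx => ?_, zp⟩
  · have : ⁅x, y⁆ = x * y * (x * y) * (y⁻¹ * x⁻¹ * y * (y⁻¹ * x⁻¹ * y)) * (y⁻¹ * y⁻¹) := by
      simp only [commutatorElement_def]; group
    rw [this]
    exact mul_mem (mul_mem (hsq _ (mul_mem hx hy))
      (hsq _ (mul_mem (mul_mem (inv_mem hy) (inv_mem hx)) hy))) (hsq _ (inv_mem hy))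
  · have hCM : 𝐂(V) ≤ 𝐍(V) := centralizer_le_normalizer _
    have k : ∀ m ∈ 𝐂(V) ⊓ rc V (Q ⊓ 𝐂(V)), m ^ 2 ^ 2 ∈ Q := by
      intro m hm
      have h1 : m * m ∈ 𝐂((Q ⊓ 𝐂(V) : Subgroup G)) :=
        mem_cen_iff.2 fun x hx => sq_cm h.vsq hm.1 (hm.2.2 x hx)
      have h2 : m * m ∈ 𝐂(V) := mul_mem hm.1 hm.1
      have h3 : m * m * (m * m) ∈ 𝐂(Q) := by
        refine mem_cen_iff.2 fun q hq => sq_cm h.vsq h2 ?_
        have h4 : ⁅m * m, q⁆ ∈ 𝐂((Q ⊓ 𝐂(V) : Subgroup G)) :=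
          cm_mem_left h1 (le_normalizer_centralizer h.nP (h.le hq))
        exact zp _ ⟨cm_mem_right (h.nrm (hCM h2)) hq, centralizer_anti h.VP h4⟩ h4
      have := h.cen _ (hCM (mul_mem h2 h2)) h3
      rwa [pow_two, pow_mul, pow_two, pow_two]
    refine ⟨h.core (𝐂(V) ⊓ rc V (Q ⊓ 𝐂(V))) (inf_le_left.trans hCM)
      (le_normalizer_inf (normalizer_le_normalizer_centralizer V) (le_norm_rc le_rfl h.nP))
      (isPGroup_iff_mem.2 fun m hm => ?_) ⟨hm, hCM hm, hx⟩, hm⟩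
    obtain ⟨j, hj⟩ := isPGroup_iff_mem.1 h.two _ (k m hm)
    exact ⟨2 + j, by rw [pow_add, pow_mul, hj]⟩

/-- there are two non-commuting conjugates -/
theorem exists_not_cen (h : Hyp V Q) {U : Subgroup G} (hU : U ≤ Q ⊓ 𝐂(V)) (hUV : ¬ U ≤ V)
    (hab : U ≤ 𝐂(U)) : ∃ m ∈ 𝐍(V), ¬ U ^ᶜ m ≤ 𝐂(U) := by
  by_contra hn
  push Not at hn
  have hCM : 𝐂(V) ≤ 𝐍(V) := centralizer_le_normalizer _
  have h1 : ncl U 𝐍(V) ≤ 𝐂(V) :=
    ncl_le (hU.trans inf_le_right) (normalizer_le_normalizer_centralizer V)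
  have h2 : ncl U 𝐍(V) ≤ 𝐂(ncl U 𝐍(V)) :=
    le_centralizer_iff.1 (ncl_le_centralizer (le_centralizer_iff.1 (ncl_le_iff.2 hn))
      (le_normalizer_ncl _ _))
  have := h.max (V ⊔ ncl U 𝐍(V)) le_sup_left (sup_le le_normalizer (h1.trans hCM))
    (by rw [centralizer_sup]
        exact sup_le (le_inf h.ab (le_centralizer_iff.1 h1)) (le_inf h1 h2))
    (le_normalizer_sup le_rfl (le_normalizer_ncl _ _))
  exact hUV (((le_ncl _ _).trans le_sup_right).trans this.le)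

end Hyp

end H23.TI
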