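import Mathlib
import Cfsg.Agent.Base
import Cfsg.Agent.Lib.TI2.MaxA
import Cfsg.Agent.Lib.TI2.Basic
import Cfsg.Agent.Lib.LocStruct.Res
import Cfsg.Agent.S1781

/-!
# Abelian TI-subgroups of exponent four, I: points and the linking relation
-/

set_option autoImplicit false
set_option linter.unusedSectionVars false

namespace H23.TA

open Subgroup H69 H23.TI Cfsg
open scoped commutatorElement

variable {G : Type*} [Group G]

/-- `Ω₁` -/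
def Om (B : Subgroup G) : Subgroup G := closure {x | x ∈ B ∧ x * x = 1}

theorem Om_le (B : Subgroup G) : Om B ≤ B := (closure_le _).2 fun _ hx => hx.1

theorem mem_Om_of {B : Subgroup G} {x : G} (h : x ∈ B) (h2 : x * x = 1) : x ∈ Om B :=
  subset_closure ⟨h, h2⟩

theorem sq_Om {B : Subgroup G} (hB : B ≤ 𝐂(B)) {x : G} (hx : x ∈ Om B) : x * x = 1 := by
  induction hx using closure_induction with
  | mem x hx => exact hx.2
  | one => simp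
  | mul x y hx hy h1 h2 =>
    calc x * y * (x * y) = x * (y * x) * y := by group
      _ = x * (x * y) * y := by rw [hB (Om_le B hx) y (Om_le B hy)]
      _ = (x * x) * (y * y) := by group
      _ = 1 := by rw [h1, h2, one_mul]
  | inv x _ h => rw [← mul_inv_rev, h, inv_one]

theorem cj_Om (B : Subgroup G) (g : G) : Om B ^ᶜ g = Om (B ^ᶜ g) := by
  have key : ∀ (B : Subgroup G) (g : G), Om B ^ᶜ g ≤ Om (B ^ᶜ g) := fun B g => by
    rw [map_le_iff_le_comap, Om, closure_le]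
    rintro x ⟨h1, h2⟩
    exact mem_Om_of (cj_mem g h1) (by
      change g * x * g⁻¹ * (g * x * g⁻¹) = 1
      rw [conj_mul, h2]; group)
  refine le_antisymm (key B g) ?_
  have := key (B ^ᶜ g) g⁻¹
  rwa [cj_cj_inv, ← le_cj_iff] at this

theorem norm_Om (B : Subgroup G) : 𝐍(B) ≤ 𝐍(Om B) := fun g hg => by
  rw [← cj_eq_self_iff, cj_Om, cj_eq_of_mem_normalizer hg]

/-- `O₂(N(B))` -/
abbrev QQ (B : Subgroup G) : Subgroup G := pCoreOf 2 𝐍(B)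

structure Pt (B : Subgroup G) : Prop where
  ab : B ≤ 𝐂(B)
  ex : ∀ b ∈ B, b * b * (b * b) = 1
  ti : IsTI B
  ne : ∃ b ∈ B, b * b ≠ 1
  four : ∃ v ∈ Om B, ∃ w ∈ Om B, v ≠ 1 ∧ w ≠ 1 ∧ v ≠ w
  cen : ∀ x ∈ 𝐍(B), x ∈ 𝐂(QQ B) → x ∈ QQ B
  max : ∀ N : Subgroup G, N ≠ ⊥ → IsPGroup 2 N → 𝐍(B) ≤ 𝐍(N) → 𝐍(N) ≤ 𝐍(B)

theorem conj_sq (g x : G) : g * x * g⁻¹ * (g * x * g⁻¹) = g * (x * x) * g⁻¹ := by group

namespace Pt

variable {B : Subgroup G}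

theorem cj [Finite G] (h : Pt B) (g : G) : Pt (B ^ᶜ g) where
  ab := by rw [← cj_centralizer]; exact cj_mono g h.ab
  ex b hb := by
    obtain ⟨a, ha, rfl⟩ := mem_cj'.1 hb
    rw [conj_sq, conj_sq, h.ex a ha]; group
  ti := h.ti.cj g
  ne := by
    obtain ⟨b, hb, h1⟩ := h.ne
    exact ⟨_, cj_mem g hb, by rw [conj_sq]; exact fun e => h1 (conj_eq_one_iff.1 e)⟩
  four := by
    obtain ⟨v, hv, w, hw, h1, h2, h3⟩ := h.four
    rw [← cj_Om]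
    exact ⟨_, cj_mem g hv, _, cj_mem g hw, fun e => h1 (conj_eq_one_iff.1 e),
      fun e => h2 (conj_eq_one_iff.1 e), fun e => h3 (by simpa using e)⟩
  cen x hx hc := by
    rw [QQ, ← cj_normalizer, ← cj_pCoreOf] at hc ⊢
    rw [← cj_centralizer] at hc
    rw [← cj_normalizer] at hx
    rw [mem_cj] at hx hc ⊢
    exact h.cen _ hx hc
  max N h1 h2 h3 := by
    have := h.max (N ^ᶜ g⁻¹) (fun e => h1 (cj_eq_bot_iff.1 e)) (isPGroup_cj h2 _)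
      (by rwa [← cj_normalizer, ← cj_le_iff, cj_normalizer])
    rwa [← cj_normalizer, ← le_cj_iff, cj_normalizer] at this

theorem comm (h : Pt B) {a b : G} (ha : a ∈ B) (hb : b ∈ B) : a * b = b * a := h.ab hb a ha

theorem cm1 (h : Pt B) {a b : G} (ha : a ∈ B) (hb : b ∈ B) : ⁅a, b⁆ = 1 :=
  commutatorElement_eq_one_iff_mul_comm.2 (h.comm ha hb)

theorem vsq (h : Pt B) {v : G} (hv : v ∈ Om B) : v * v = 1 := sq_Om h.ab hv

theorem vinv (h : Pt B) {v : G} (hv : v ∈ Om B) : v⁻¹ = v := inv_eq_of_mul_eq_one_right (h.vsq hv)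

theorem sq_mem (h : Pt B) {b : G} (hb : b ∈ B) : b * b ∈ Om B := mem_Om_of (mul_mem hb hb) (h.ex b hb)

theorem mul_sq (h : Pt B) {a b : G} (ha : a ∈ B) (hb : b ∈ B) :
    a * b * (a * b) = a * a * (b * b) := by
  calc a * b * (a * b) = a * (b * a) * b := by group
    _ = _ := by rw [← h.comm ha hb]; group

theorem isP (h : Pt B) : IsPGroup 2 B :=
  isPGroup_iff_mem.2 fun x hx => ⟨2, by rw [pow_two, pow_mul, pow_two, pow_two, h.ex x hx]⟩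

theorem exists_ne (h : Pt B) : ∃ v ∈ Om B, v ≠ 1 := by
  obtain ⟨v, hv, -, -, h1, -⟩ := h.four
  exact ⟨v, hv, h1⟩

theorem exists_not_mem (h : Pt B) : ∃ b ∈ B, b ∉ Om B := by
  obtain ⟨b, hb, h1⟩ := h.ne
  exact ⟨b, hb, fun e => h1 (h.vsq e)⟩

theorem exists_ne_ne (h : Pt B) (u : G) : ∃ v ∈ Om B, v ≠ 1 ∧ v ≠ u := by
  obtain ⟨v, hv, w, hw, h1, h2, h3⟩ := h.four
  by_cases e : v = u
  · exact ⟨w, hw, h2, fun e' => h3 (e.trans e'.symm)⟩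
  · exact ⟨v, hv, h1, e⟩

theorem cenV (h : Pt B) : 𝐂(Om B) ≤ 𝐍(B) := fun x hx => by
  obtain ⟨v, hv, h1⟩ := h.exists_ne
  exact h.ti.mem_norm_of_comm (Om_le B hv) h1 (mem_cen_iff.1 hx v hv)

theorem CV (_ : Pt B) : 𝐂(B) ≤ 𝐂(Om B) := centralizer_anti (Om_le B)

theorem VC (h : Pt B) : Om B ≤ 𝐂(B) := (Om_le B).trans h.ab

theorem BV (h : Pt B) : B ≤ 𝐂(Om B) := h.ab.trans h.CV

theorem Vab (h : Pt B) : Om B ≤ 𝐂(Om B) := (Om_le B).trans h.BV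

/-- elements centralizing `Ω₁(B)` centralize `B / Ω₁(B)` -/
theorem cm_K (h : Pt B) {k b : G} (hk : k ∈ 𝐂(Om B)) (hb : b ∈ B) : ⁅k, b⁆ ∈ Om B := by
  have h1 := conj_mem_of_mem_normalizer (h.cenV hk) hb
  refine mem_Om_of (cm_mem_right (h.cenV hk) hb) ?_
  rw [commutatorElement_def, h.mul_sq h1 (inv_mem hb), conj_sq,
    conj_eq_of_mem_centralizer hk (h.sq_mem hb)]
  group

theorem cm_K' (h : Pt B) {k b : G} (hk : k ∈ 𝐂(Om B)) (hb : b ∈ B) : ⁅b, k⁆ ∈ Om B := by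
  rw [← commutatorElement_inv]; exact inv_mem (h.cm_K hk hb)

theorem cm_symm_K (h : Pt B) {k b : G} (hk : k ∈ 𝐂(Om B)) (hb : b ∈ B) : ⁅b, k⁆ = ⁅k, b⁆ := by
  rw [← commutatorElement_inv, h.vinv (h.cm_K hk hb)]

theorem cml_K (h : Pt B) {k l b : G} (hk : k ∈ 𝐂(Om B)) (hl : l ∈ 𝐂(Om B)) (hb : b ∈ B) :
    ⁅k * l, b⁆ = ⁅l, b⁆ * ⁅k, b⁆ := by
  rw [cm_mul_left, conj_eq_of_mem_centralizer hk (h.cm_K hl hb)]

theorem cmr_K (h : Pt B) {k a b : G} (hk : k ∈ 𝐂(Om B)) (ha : a ∈ B) (hb : b ∈ B) :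
    ⁅k, a * b⁆ = ⁅k, a⁆ * ⁅k, b⁆ := by
  rw [cm_mul_right, conj_eq_of_mem_centralizer (h.BV ha) (h.cm_K hk hb)]

theorem sq_K (h : Pt B) {k : G} (hk : k ∈ 𝐂(Om B)) : k * k ∈ 𝐂(B) :=
  mem_cen_iff.2 fun _ hb => sq_cm (fun _ => h.vsq) hk (h.cm_K hk hb)

theorem cmK (h : Pt B) {k l : G} (hk : k ∈ 𝐂(Om B)) (hl : l ∈ 𝐂(Om B)) : ⁅k, l⁆ ∈ 𝐂(B) := by
  have : ⁅k, l⁆ = k * l * (k * l) * (l⁻¹ * k⁻¹ * l * (l⁻¹ * k⁻¹ * l)) * (l⁻¹ * l⁻¹) := by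
    simp only [commutatorElement_def]; group
  rw [this]
  exact mul_mem (mul_mem (h.sq_K (mul_mem hk hl))
    (h.sq_K (mul_mem (mul_mem (inv_mem hl) (inv_mem hk)) hl))) (h.sq_K (inv_mem hl))

theorem Qle (_ : Pt B) : QQ B ≤ 𝐍(B) := H1.pCoreOf_le _

theorem Qn (_ : Pt B) : 𝐍(B) ≤ 𝐍(QQ B) := H1.le_normalizer_pCoreOf _

theorem Q2 (_ : Pt B) : IsPGroup 2 (QQ B) := H1.isPGroup_pCoreOf _

theorem leQ (_ : Pt B) {N : Subgroup G} (h1 : N ≤ 𝐍(B)) (h2 : 𝐍(B) ≤ 𝐍(N)) (h3 : IsPGroup 2 N) :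
    N ≤ QQ B := H1.le_pCoreOf h1 h2 h3

theorem BQ (h : Pt B) : B ≤ QQ B := h.leQ le_normalizer le_rfl h.isP

end Pt

/-- a conjugacy class of points -/
structure Fam (D : Set (Subgroup G)) : Prop where
  pt : ∀ {B}, B ∈ D → Pt B
  cj : ∀ {B}, B ∈ D → ∀ g, B ^ᶜ g ∈ D
  tr : ∀ {A B}, A ∈ D → B ∈ D → ∃ g, B = A ^ᶜ g

variable [Finite G] {D : Set (Subgroup G)}

namespace Fam

variable {A B : Subgroup G}

theorem ti (F : Fam D) (hA : A ∈ D) (hB : B ∈ D) {x : G} (h1 : x ∈ A) (h2 : x ∈ B) (h : x ≠ 1) :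
    A = B := by
  obtain ⟨g, rfl⟩ := F.tr hA hB
  by_contra hne
  exact h ((F.pt hA).ti.eq_one (Ne.symm hne) h2 h1)

theorem eq_one (F : Fam D) (hA : A ∈ D) (hB : B ∈ D) (hne : A ≠ B) {x : G} (h1 : x ∈ A)
    (h2 : x ∈ B) : x = 1 := by
  by_contra h; exact hne (F.ti hA hB h1 h2 h)

theorem card_Om (F : Fam D) (hA : A ∈ D) (hB : B ∈ D) : Nat.card (Om A) = Nat.card (Om B) := by
  obtain ⟨g, rfl⟩ := F.tr hA hB
  rw [← cj_Om, card_cj]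

theorem dich (F : Fam D) (hA : A ∈ D) (hB : B ∈ D) (hne : A ≠ B) (hc : ¬ A ≤ 𝐂(B)) {x : G}
    (h1 : x ∈ A) (h2 : x ∈ 𝐍(B)) : x * x = 1 := by
  obtain ⟨g, rfl⟩ := F.tr hA hB
  have h := F.pt hA
  rcases Cfsg.Agent.S1781.result A h.isP ⟨⟨fun a b => Subtype.ext (h.comm a.2 b.2)⟩⟩ h.ti g
    (Ne.symm hne) with h3 | h3
  · rw [← pow_two]; exact h3.2 x ⟨h1, h2⟩
  · exact absurd (le_centralizer_of_commutator_eq_bot h3) hc

theorem comm_of_two (F : Fam D) (hA : A ∈ D) (hB : B ∈ D) {T : Subgroup G} (hT : IsPGroup 2 T)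
    (h1 : A ≤ T) (h2 : B ≤ T) : A ≤ 𝐂(B) := by
  by_cases e : A = B
  · subst e; exact (F.pt hA).ab
  have := H79.TI.commute_of_TI D
    (fun R hR => by simpa only [pow_two] using (F.pt hR).ne)
    (fun R hR S hS => by obtain ⟨g, rfl⟩ := F.tr hR hS; rw [card_cj])
    (fun R hR S hS => by
      by_cases e : R = S
      · exact Or.inl e
      · exact Or.inr (eq_bot_iff.2 fun x hx => F.eq_one hR hS e hx.1 hx.2))
    _ T rfl hT (fun s _ R hR _ => F.cj hR s) A hA B hB h1 h2 e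
  exact fun a ha b hb => (this a ha b hb).eq.symm

end Fam

theorem ncl_ab {A T : Subgroup G} (h : ∀ g ∈ T, A ^ᶜ g ≤ 𝐂(A)) : ncl A T ≤ 𝐂(ncl A T) :=
  le_centralizer_iff.1 (ncl_le_centralizer (le_centralizer_iff.1 (ncl_le_iff.2 h))
    (le_normalizer_ncl _ _))

theorem Fam.ncl_ab (F : Fam D) {A T : Subgroup G} (hA : A ∈ D) (hT : IsPGroup 2 T) (h : A ≤ T) :
    ncl A T ≤ 𝐂(ncl A T) :=
  TA.ncl_ab fun g hg => F.comm_of_two (F.cj hA g) hA hT (cj_le_of_mem h hg) h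

section dihedral

variable {K : Type*} [Group K] {X Y : K}

theorem dih_conj (hX : X * X = 1) (hY : Y * Y = 1) (k : ℕ) :
    X * (X * Y) ^ k * X⁻¹ = ((X * Y) ^ k)⁻¹ := by
  rw [← conj_pow, ← inv_pow]
  congr 1
  rw [mul_inv_rev, inv_eq_of_mul_eq_one_right hX, inv_eq_of_mul_eq_one_right hY, ← mul_assoc, hX,
    one_mul]

theorem dih_even (hX : X * X = 1) (hY : Y * Y = 1) (j : ℕ) :
    ((X * Y) ^ j)⁻¹ * X * (X * Y) ^ j = X * (X * Y) ^ (2 * j) := by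
  rw [← dih_conj hX hY, two_mul, pow_add]; group

theorem dih_odd (hX : X * X = 1) (hY : Y * Y = 1) (j : ℕ) :
    ((X * Y) ^ j)⁻¹ * Y * (X * Y) ^ j = X * (X * Y) ^ (2 * j + 1) := by
  have : Y = X * (X * Y) := by rw [← mul_assoc, hX, one_mul]
  rw [← dih_conj hX hY]
  nth_rewrite 2 [this]
  rw [two_mul, pow_succ, pow_add, inv_eq_of_mul_eq_one_right hX]
  calc X * (X * Y) ^ j * X * (X * (X * Y)) * (X * Y) ^ j
      = X * (X * Y) ^ j * (X * X) * ((X * Y) * (X * Y) ^ j) := by simp only [mul_assoc]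
    _ = _ := by rw [hX, ← pow_succ', pow_succ]; simp only [mul_assoc, one_mul]

end dihedral

end H23.TA
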