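import Mathlib
import Cfsg.Agent.Base
import Cfsg.Agent.Lib.TI2.Ab1

/-!
# Abelian TI-subgroups of exponent four, II: the linking relation
-/

set_option autoImplicit false
set_option linter.unusedSectionVars false

namespace H23.TA

open Subgroup H69 H23.TI Cfsg
open scoped commutatorElement

variable {G : Type*} [Group G]

open Classical in
/-- the automorphism of `E` induced by `g` -/
noncomputable def act (E : Subgroup G) (g : G) : MulAut E :=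
  if h : g ∈ 𝐍(E) then E.normalizerMonoidHom ⟨g, h⟩ else 1

section act

variable {E : Subgroup G} {g h : G}

theorem act_apply (hg : g ∈ 𝐍(E)) (e : E) : (act E g e : G) = g * e * g⁻¹ := by
  rw [act, dif_pos hg]; rfl

theorem act_eq_iff (hg : g ∈ 𝐍(E)) (hh : h ∈ 𝐍(E)) :
    act E g = act E h ↔ ∀ e ∈ E, g * e * g⁻¹ = h * e * h⁻¹ := by
  constructor
  · intro e x hx
    rw [← act_apply hg ⟨x, hx⟩, e, act_apply hh]
  · intro e
    ext x
    rw [act_apply hg, act_apply hh, e x x.2]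

theorem act_mul (hg : g ∈ 𝐍(E)) (hh : h ∈ 𝐍(E)) : act E (g * h) = act E g * act E h := by
  ext x
  rw [act_apply (mul_mem hg hh), MulAut.mul_apply, act_apply hg, act_apply hh]; group

theorem act_one : act E 1 = 1 := by
  ext x
  rw [act_apply (one_mem _)]; simp

theorem act_inv (hg : g ∈ 𝐍(E)) : act E g⁻¹ = (act E g)⁻¹ := by
  rw [eq_inv_iff_mul_eq_one, ← act_mul (inv_mem hg) hg, inv_mul_cancel, act_one]

theorem act_pow (hg : g ∈ 𝐍(E)) (n : ℕ) : act E (g ^ n) = act E g ^ n := by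
  induction n with
  | zero => rw [pow_zero, pow_zero, act_one]
  | succ n ih => rw [pow_succ, pow_succ, act_mul (pow_mem hg n) hg, ih]

theorem act_eq_one (hg : g ∈ 𝐂(E)) : act E g = 1 := by
  rw [← act_one, act_eq_iff (centralizer_le_normalizer _ hg) (one_mem _)]
  intro e he
  rw [conj_eq_of_mem_centralizer hg he]; simp

theorem cm_of_act (hg : g ∈ 𝐍(E)) (hh : h ∈ 𝐍(E)) (e : act E g = act E h) {x : G} (hx : x ∈ E)
    (h1 : ⁅g, x⁆ = 1) : ⁅h, x⁆ = 1 := by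
  rw [commutatorElement_def, ← (act_eq_iff hg hh).1 e x hx, ← commutatorElement_def, h1]

end act

variable [Finite G] {D : Set (Subgroup G)}

/-- a point acting on the elementary abelian group `E` as a group of shears -/
structure Ept (D : Set (Subgroup G)) (E P : Subgroup G) : Prop where
  mem : P ∈ D
  ex : ∃ u ∈ P, u ∈ E ∧ u ≠ 1
  nrm : P ≤ 𝐍(E)
  reg : ∀ p ∈ P, p ∉ E → ∀ e ∈ E, ⁅p, e⁆ = 1 → e ∈ P
  sq : ∀ p ∈ P, p * p ∈ E

variable {E P R A B : Subgroup G}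

theorem Ept.cj (F : Fam D) (h : Ept D E P) {g : G} (hg : g ∈ 𝐍(E)) : Ept D E (P ^ᶜ g) where
  mem := F.cj h.mem g
  ex := by
    obtain ⟨u, h1, h2, h3⟩ := h.ex
    exact ⟨_, cj_mem g h1, conj_mem_of_mem_normalizer hg h2, fun e => h3 (conj_eq_one_iff.1 e)⟩
  nrm := cj_le_of_mem h.nrm hg
  reg p hp hp' e he h1 := by
    obtain ⟨q, hq, rfl⟩ := mem_cj'.1 hp
    rw [mem_cj]
    refine h.reg q hq (fun h2 => hp' (conj_mem_of_mem_normalizer hg h2)) _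
      (conj_mem_of_mem_normalizer' hg he) ?_
    rw [← conj_eq_one_iff (a := g), cm_conj, ← h1]
    congr 1; group
  sq p hp := by
    obtain ⟨q, hq, rfl⟩ := mem_cj'.1 hp
    rw [conj_sq]
    exact conj_mem_of_mem_normalizer hg (h.sq q hq)

theorem Ept.eq (F : Fam D) (h : Ept D E P) (h' : Ept D E R) {p r : G} (hp : p ∈ P) (hr : r ∈ R)
    (hr' : r ∉ E) (e : act E p = act E r) : P = R := by
  obtain ⟨u, h1, h2, h3⟩ := h.ex
  exact F.ti h.mem h'.mem h1 (h'.reg r hr hr' u h2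
    (cm_of_act (h.nrm hp) (h'.nrm hr) e h2 ((F.pt h.mem).cm1 hp h1))) h3

theorem Ept.act_sq (h : Ept D E P) (hE : E ≤ 𝐂(E)) {p : G} (hp : p ∈ P) :
    act E p * act E p = 1 := by
  rw [← act_mul (h.nrm hp) (h.nrm hp), act_eq_one (hE (h.sq p hp))]

theorem not_mem_conj {g p : G} (hg : g ∈ 𝐍(E)) (hp : p ∉ E) : g * p * g⁻¹ ∉ E := fun h =>
  hp (by simpa [mul_assoc] using conj_mem_of_mem_normalizer' hg h)

theorem exists_fixed (hE : E ≤ 𝐂(E)) (hsq : ∀ e ∈ E, e * e = 1) {U : Subgroup G} (hU : U ≤ E)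
    {z : G} (hz : ∀ u ∈ U, z * u * z⁻¹ ∈ U) (hz2 : ∀ u ∈ U, z * z * u * (z * z)⁻¹ = u) {u : G}
    (hu : u ∈ U) (hu1 : u ≠ 1) : ∃ w ∈ U, w ≠ 1 ∧ ⁅z, w⁆ = 1 := by
  by_cases e : z * u * z⁻¹ = u
  · exact ⟨u, hu, hu1, by rw [commutatorElement_def, e, mul_inv_cancel]⟩
  refine ⟨u * (z * u * z⁻¹), mul_mem hu (hz u hu), fun h => e ?_, ?_⟩
  · rw [← inv_eq_of_mul_eq_one_right h, inv_eq_of_mul_eq_one_right (hsq u (hU hu))]
  · rw [commutatorElement_def, mul_inv_eq_one]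
    calc z * (u * (z * u * z⁻¹)) * z⁻¹ = z * u * z⁻¹ * (z * z * u * (z * z)⁻¹) := by group
      _ = _ := by rw [hz2 u hu, hE (hU hu) _ (hU (hz u hu))]

theorem half (F : Fam D) (hE : E ≤ 𝐂(E)) (hsq : ∀ e ∈ E, e * e = 1) (hA : Ept D E A)
    (hB : Ept D E B) {a b : G} (ha : a ∈ A) (ha' : a ∉ E) (hb : b ∈ B) (hb' : b ∉ E) {m : ℕ}
    (hm : (act E a * act E b) ^ m * (act E a * act E b) ^ m = 1) {u : G} (hu : u ∈ A)
    (huE : u ∈ E) : ⁅(a * b) ^ m, u⁆ = 1 := by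
  have na := hA.nrm ha
  have nb := hB.nrm hb
  have nab := mul_mem na nb
  have nz := pow_mem nab m
  have X2 := hA.act_sq hE ha
  have Y2 := hB.act_sq hE hb
  have ez : act E ((a * b) ^ m) = (act E a * act E b) ^ m := by rw [act_pow nab, act_mul na nb]
  have e1 : act E (((a * b) ^ m)⁻¹ * a * (a * b) ^ m) = act E a := by
    rw [act_mul (mul_mem (inv_mem nz) na) nz, act_mul (inv_mem nz) na, act_inv nz, ez,
      ← dih_conj X2 Y2, inv_mul_cancel_right, mul_assoc, hm, mul_one]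
  obtain ⟨P, hP, p, hp, hp', e2⟩ : ∃ P, Ept D E P ∧ ∃ p ∈ P, p ∉ E ∧
      act E (a * (a * b) ^ m) = act E p := by
    have k : ∀ j : ℕ, ∀ c, c ∈ 𝐍(E) → act E (((a * b) ^ j)⁻¹ * c * ((a * b) ^ j)⁻¹⁻¹) =
        ((act E a * act E b) ^ j)⁻¹ * act E c * (act E a * act E b) ^ j := fun j c hc => by
      have nj := pow_mem nab j
      rw [inv_inv, act_mul (mul_mem (inv_mem nj) hc) nj, act_mul (inv_mem nj) hc, act_inv nj,
        act_pow nab, act_mul na nb]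
    rw [act_mul na nz, ez]
    obtain ⟨j, rfl | rfl⟩ := Nat.even_or_odd' m
    · have nj := inv_mem (pow_mem nab j)
      exact ⟨_, hA.cj F nj, _, cj_mem _ ha, not_mem_conj nj ha', by rw [k j a na, dih_even X2 Y2]⟩
    · have nj := inv_mem (pow_mem nab j)
      exact ⟨_, hB.cj F nj, _, cj_mem _ hb, not_mem_conj nj hb', by rw [k j b nb, dih_odd X2 Y2]⟩
  set z := (a * b) ^ m
  have pA := F.pt hA.mem
  obtain ⟨u0, h1, h2, h3⟩ := hA.ex
  obtain ⟨w, hw, hw1, hw2⟩ := exists_fixed hE hsq (U := A ⊓ E) inf_le_right (z := z)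
    (fun v hv => by
      have hv' := conj_mem_of_mem_normalizer nz hv.2
      refine ⟨hA.reg a ha ha' _ hv' ?_, hv'⟩
      have := cm_of_act na (mul_mem (mul_mem (inv_mem nz) na) nz) e1.symm hv.2 (pA.cm1 ha hv.1)
      rw [← conj_eq_one_iff (a := z), cm_conj] at this
      rw [← this]; congr 1; group)
    (fun v hv => by
      have := (act_eq_iff (mul_mem nz nz) (one_mem _)).1
        (by rw [act_mul nz nz, ez, hm, act_one]) v hv.2
      simpa using this) (u := u0) ⟨h1, h2⟩ h3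
  have naz := mul_mem na nz
  have e3 : P = A := F.ti hP.mem hA.mem (hP.reg p hp hp' w hw.2 (cm_of_act naz (hP.nrm hp) e2 hw.2
    (by rw [cm_mul_left, hw2, pA.cm1 ha hw.1]; simp))) hw.1 hw1
  subst e3
  have := cm_of_act (hP.nrm hp) naz e2.symm huE (pA.cm1 hp hu)
  rw [cm_mul_left, pA.cm1 ha hu, mul_one, conj_eq_one_iff] at this
  exact this

theorem odd_order (F : Fam D) (hE : E ≤ 𝐂(E)) (hsq : ∀ e ∈ E, e * e = 1) (hA : Ept D E A)
    (hB : Ept D E B) (gen : ∀ e ∈ E, ∃ u ∈ A, u ∈ E ∧ ∃ w ∈ B, w ∈ E ∧ e = u * w) {a b : G}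
    (ha : a ∈ A) (ha' : a ∉ E) (hb : b ∈ B) (hb' : b ∉ E) :
    Odd (orderOf (act E a * act E b)) := by
  rw [← Nat.not_even_iff_odd]
  rintro ⟨m, hm⟩
  have na := hA.nrm ha
  have nb := hB.nrm hb
  have X2 := hA.act_sq hE ha
  have Y2 := hB.act_sq hE hb
  have hpos := orderOf_pos (act E a * act E b)
  have h1 : (act E a * act E b) ^ m * (act E a * act E b) ^ m = 1 := by
    rw [← pow_add, ← hm, pow_orderOf_eq_one]
  have e : act E b * act E a = (act E a * act E b)⁻¹ := by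
    rw [mul_inv_rev, inv_eq_of_mul_eq_one_right X2, inv_eq_of_mul_eq_one_right Y2]
  have e' : (act E b * act E a) ^ m = (act E a * act E b) ^ m := by
    rw [e, inv_pow, inv_eq_of_mul_eq_one_right h1]
  refine pow_ne_one_of_lt_orderOf (n := m) (by omega) (by omega : m < orderOf (act E a * act E b)) ?_
  rw [← act_mul na nb, ← act_pow (mul_mem na nb)]
  refine act_eq_one (mem_cen_iff.2 fun x hx => ?_)
  obtain ⟨u, hu, hu', w, hw, hw', rfl⟩ := gen x hx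
  rw [cm_mul_right, half F hE hsq hA hB ha ha' hb hb' h1 hu hu', one_mul, conj_eq_one_iff]
  refine cm_of_act (pow_mem (mul_mem nb na) m) (pow_mem (mul_mem na nb) m) ?_ hw'
    (half F hE hsq hB hA hb hb' ha ha' (by rw [e', h1]) hw hw')
  rw [act_pow (mul_mem na nb), act_pow (mul_mem nb na), act_mul na nb, act_mul nb na, e']

/-- two points which do not commute, one of which meets the normalizer of the other -/
structure Lk (D : Set (Subgroup G)) (A B : Subgroup G) : Prop where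
  F : Fam D
  hA : A ∈ D
  hB : B ∈ D
  ne : A ≠ B
  nc : ¬ A ≤ 𝐂(B)
  ex : ∃ x ∈ B, x ∈ 𝐍(A) ∧ x ≠ 1

namespace Lk

theorem pA (h : Lk D A B) : Pt A := h.F.pt h.hA

theorem pB (h : Lk D A B) : Pt B := h.F.pt h.hB

theorem cmU (h : Lk D A B) {a b : G} (ha : a ∈ A ⊓ 𝐍(B)) (hb : b ∈ B ⊓ 𝐍(A)) : ⁅a, b⁆ = 1 :=
  h.F.eq_one h.hA h.hB h.ne (cm_mem_left ha.1 hb.2) (cm_mem_right ha.2 hb.1)

theorem sqA (h : Lk D A B) {a : G} (ha : a ∈ A ⊓ 𝐍(B)) : a * a = 1 :=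
  h.F.dich h.hA h.hB h.ne h.nc ha.1 ha.2

theorem sqB (h : Lk D A B) {b : G} (hb : b ∈ B ⊓ 𝐍(A)) : b * b = 1 :=
  h.F.dich h.hB h.hA h.ne.symm (fun e => h.nc (le_centralizer_iff.1 e)) hb.1 hb.2

theorem regU (h : Lk D A B) {a u : G} (ha : a ∈ A) (hu : u ∈ B) (hu1 : u ≠ 1) (e : ⁅a, u⁆ = 1) :
    a ∈ A ⊓ 𝐍(B) := ⟨ha, h.pB.ti.mem_norm_of_comm hu hu1 e⟩

theorem tr_mem (h : Lk D A B) {a u : G} (ha : a ∈ A) (hu : u ∈ B ⊓ 𝐍(A)) (hu1 : u ≠ 1) :
    a * (u * a * u⁻¹) ∈ A ⊓ 𝐍(B) := by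
  have h1 := conj_mem_of_mem_normalizer hu.2 ha
  refine h.regU (mul_mem ha h1) hu.1 hu1 (cm_symm ?_)
  rw [commutatorElement_def, mul_inv_eq_one]
  calc u * (a * (u * a * u⁻¹)) * u⁻¹ = u * a * u⁻¹ * ((u * u) * a * (u * u)⁻¹) := by group
    _ = _ := by rw [h.sqB hu, one_mul, inv_one, mul_one, h.pA.comm ha h1]

theorem sqU (h : Lk D A B) {a : G} (ha : a ∈ A) : a * a ∈ A ⊓ 𝐍(B) := by
  obtain ⟨u, hu, hu', hu1⟩ := h.ex
  refine h.regU (mul_mem ha ha) hu hu1 (cm_symm ?_)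
  have h1 := h.sqA (h.tr_mem ha ⟨hu, hu'⟩ hu1)
  rw [h.pA.mul_sq ha (conj_mem_of_mem_normalizer hu' ha), conj_sq] at h1
  rw [commutatorElement_def, ← inv_eq_of_mul_eq_one_right h1, ← mul_inv_rev, h.pA.ex a ha, inv_one]

theorem symm (h : Lk D A B) : Lk D B A := by
  obtain ⟨a, ha, h1⟩ := h.pA.ne
  exact ⟨h.F, h.hB, h.hA, h.ne.symm, fun e => h.nc (le_centralizer_iff.1 e), _, (h.sqU ha).1,
    (h.sqU ha).2, h1⟩

theorem cm_memU (h : Lk D A B) {a u : G} (ha : a ∈ A) (hu : u ∈ B ⊓ 𝐍(A)) : ⁅a, u⁆ ∈ A ⊓ 𝐍(B) := by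
  by_cases hu1 : u = 1
  · rw [hu1, commutatorElement_one_right]; exact one_mem _
  have : ⁅a, u⁆ = a * a * (a⁻¹ * (u * a⁻¹ * u⁻¹)) := by rw [commutatorElement_def]; group
  rw [this]
  exact mul_mem (h.sqU ha) (h.tr_mem (inv_mem ha) hu hu1)

/-- the span of the two intersections -/
abbrev EU (A B : Subgroup G) : Subgroup G := A ⊓ 𝐍(B) ⊔ B ⊓ 𝐍(A)

theorem mem_EU (h : Lk D A B) {e : G} :
    e ∈ EU A B ↔ ∃ u ∈ A ⊓ 𝐍(B), ∃ w ∈ B ⊓ 𝐍(A), e = u * w :=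
  mem_sup_of_le_normalizer_left (le_normalizer_of_le_centralizer fun b hb =>
    mem_cen_iff'.2 fun _ ha => h.cmU ha hb)

theorem EU_ab (h : Lk D A B) : EU A B ≤ 𝐂(EU A B) := by
  have h1 : A ⊓ 𝐍(B) ≤ 𝐂((B ⊓ 𝐍(A) : Subgroup G)) := fun a ha =>
    mem_cen_iff.2 fun _ hb => h.cmU ha hb
  rw [centralizer_sup]
  exact sup_le (le_inf (inf_le_left.trans (h.pA.ab.trans (centralizer_anti inf_le_left))) h1)
    (le_inf (le_centralizer_iff.1 h1)
      (inf_le_left.trans (h.pB.ab.trans (centralizer_anti inf_le_left))))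

theorem EU_sq (h : Lk D A B) : ∀ e ∈ EU A B, e * e = 1 := fun e he => by
  obtain ⟨u, hu, w, hw, rfl⟩ := h.mem_EU.1 he
  calc u * w * (u * w) = u * (w * u * w⁻¹) * (w * w) := by group
    _ = 1 := by rw [conj_eq_of_cm (cm_symm (h.cmU hu hw)), h.sqA hu, h.sqB hw, one_mul]

theorem mem_U (h : Lk D A B) {a : G} (ha : a ∈ A) (he : a ∈ EU A B) : a ∈ A ⊓ 𝐍(B) := by
  obtain ⟨u, hu, w, hw, rfl⟩ := h.mem_EU.1 he
  have := h.F.eq_one h.hA h.hB h.ne (by simpa using A.mul_mem (A.inv_mem hu.1) ha) hw.1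
  rwa [this, mul_one]

theorem ept (h : Lk D A B) : Ept D (EU A B) A where
  mem := h.hA
  ex := by
    obtain ⟨x, h1, h2, h3⟩ := h.symm.ex
    exact ⟨x, h1, mem_sup_left ⟨h1, h2⟩, h3⟩
  nrm := le_normalizer_of_commutator_le_right (commutator_le.2 fun a ha e he => by
    obtain ⟨u, hu, w, hw, rfl⟩ := h.mem_EU.1 he
    rw [cm_mul_right, h.pA.cm1 ha hu.1, one_mul]
    exact mem_sup_left (mul_mem (mul_mem hu (h.cm_memU ha hw)) (inv_mem hu)))
  reg p hp hp' e he h1 := by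
    obtain ⟨u, hu, w, hw, rfl⟩ := h.mem_EU.1 he
    by_cases hw1 : w = 1
    · rw [hw1, mul_one]; exact hu.1
    rw [cm_mul_right, h.pA.cm1 hp hu.1, one_mul, conj_eq_one_iff] at h1
    exact absurd (mem_sup_left (h.regU hp hw.1 hw1 h1)) hp'
  sq p hp := mem_sup_left (h.sqU hp)

theorem ept' (h : Lk D A B) : Ept D (EU A B) B := by
  have := h.symm.ept
  rwa [EU, sup_comm] at this

theorem oddU (h : Lk D A B) {a b : G} (ha : a ∈ A) (ha' : a ∉ EU A B) (hb : b ∈ B)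
    (hb' : b ∉ EU A B) : Odd (orderOf (act (EU A B) a * act (EU A B) b)) :=
  odd_order h.F h.EU_ab h.EU_sq h.ept h.ept' (fun _ he => by
    obtain ⟨u, hu, w, hw, rfl⟩ := h.mem_EU.1 he
    exact ⟨u, hu.1, mem_sup_left hu, w, hw.1, mem_sup_right hw, rfl⟩) ha ha' hb hb'

theorem swapU (h : Lk D A B) {a b : G} (ha : a ∈ A) (ha' : a ∉ EU A B) (hb : b ∈ B)
    (hb' : b ∉ EU A B) : ∃ g ∈ A ⊔ B, A ^ᶜ g = B ∧ g * (a * a) * g⁻¹ = b * b := by
  obtain ⟨j, hj⟩ := h.oddU ha ha' hb hb'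
  have na := h.ept.nrm ha
  have nb := h.ept'.nrm hb
  have nj := inv_mem (pow_mem (mul_mem na nb) (j + 1))
  have X2 := h.ept.act_sq h.EU_ab ha
  have Y2 := h.ept'.act_sq h.EU_ab hb
  set g := ((a * b) ^ (j + 1))⁻¹ with hg
  have e : act (EU A B) (g * a * g⁻¹) = act (EU A B) b := by
    rw [act_mul (mul_mem nj na) (inv_mem nj), act_mul nj na, act_inv nj, hg,
      act_inv (inv_mem_iff.1 nj), act_pow (mul_mem na nb), act_mul na nb, inv_inv, dih_even X2 Y2,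
      show 2 * (j + 1) = 2 * j + 1 + 1 by ring, ← hj, pow_succ, pow_orderOf_eq_one, one_mul,
      ← mul_assoc, X2, one_mul]
  have e1 := (h.ept.cj h.F nj).eq h.F h.ept' (cj_mem g ha) hb hb' e
  have h1 : g * a * g⁻¹ ∈ B := e1 ▸ cj_mem g ha
  refine ⟨g, inv_mem (pow_mem (mul_mem (mem_sup_left ha) (mem_sup_right hb)) _), e1, ?_⟩
  obtain ⟨x, hx, hx', hx1⟩ := h.symm.ex
  have hxE : x ∈ EU A B := mem_sup_left ⟨hx, hx'⟩
  have h2 : ⁅b⁻¹ * (g * a * g⁻¹), x⁆ = 1 := by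
    refine mem_cen_iff.1 (mem_cen_iff.2 fun y hy => ?_) x hxE
    have := (act_eq_iff (mul_mem (mul_mem nj na) (inv_mem nj)) nb).1 e y hy
    calc ⁅b⁻¹ * (g * a * g⁻¹), y⁆ = b⁻¹ * (g * a * g⁻¹ * y * (g * a * g⁻¹)⁻¹) * b * y⁻¹ := by
          rw [commutatorElement_def]; group
      _ = 1 := by rw [this]; group
  have h3 := h.sqB (h.symm.regU (mul_mem (inv_mem hb) h1) hx hx1 h2)
  rw [h.pB.mul_sq (inv_mem hb) h1, conj_sq, ← mul_inv_rev, inv_mul_eq_one] at h3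
  exact h3.symm

theorem U_eq (h : Lk D A B) : A ⊓ 𝐍(B) = Om A := by
  refine le_antisymm (fun a ha => mem_Om_of ha.1 (h.sqA ha)) fun a ha => ?_
  by_contra h1
  obtain ⟨b, hb, h2⟩ := h.pB.ne
  obtain ⟨g, -, -, e⟩ := h.swapU (Om_le A ha) (fun e => h1 (h.mem_U (Om_le A ha) e)) hb
    (fun e => h2 (h.EU_sq b e))
  rw [h.pA.vsq ha] at e
  exact h2 (by rw [← e]; group)

theorem EU_eq (h : Lk D A B) : EU A B = Om A ⊔ Om B := by rw [EU, h.U_eq, h.symm.U_eq]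

end Lk

end H23.TA
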