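import Mathlib
import Cfsg.Agent.Base
import Cfsg.Agent.Lib.TI2.Ab2

/-!
# Abelian TI-subgroups of exponent four, III: linked points
-/

set_option autoImplicit false
set_option linter.unusedSectionVars false

namespace H23.TA

open Subgroup H69 H23.TI Cfsg
open scoped commutatorElement

variable {G : Type*} [Group G] [Finite G] {D : Set (Subgroup G)} {A B P : Subgroup G}

theorem Fam.tri (F : Fam D) (hA : A ∈ D) (hB : B ∈ D) {x : G} (h1 : x ∈ B) (h2 : x ∈ 𝐍(A))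
    (h3 : x ≠ 1) : A = B ∨ B ≤ 𝐂(A) ∨ Lk D A B := by
  by_cases e : A = B
  · exact Or.inl e
  by_cases e' : B ≤ 𝐂(A)
  · exact Or.inr (Or.inl e')
  exact Or.inr (Or.inr ⟨F, hA, hB, e, fun h => e' (le_centralizer_iff.1 h), x, h1, h2, h3⟩)

namespace Lk

theorem cj (h : Lk D A B) (g : G) : Lk D (A ^ᶜ g) (B ^ᶜ g) := by
  obtain ⟨x, h1, h2, h3⟩ := h.ex
  refine ⟨h.F, h.F.cj h.hA g, h.F.cj h.hB g, fun e => h.ne (cj_inj.1 e), fun e => h.nc ?_,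
    _, cj_mem g h1, by rw [← cj_normalizer]; exact cj_mem g h2, fun e => h3 (conj_eq_one_iff.1 e)⟩
  rwa [← cj_centralizer, cj_le_cj_iff] at e

theorem mem_Om (h : Lk D A B) {a : G} (ha : a ∈ A) (hn : a ∈ 𝐍(B)) : a ∈ Om A :=
  h.U_eq ▸ (⟨ha, hn⟩ : a ∈ A ⊓ 𝐍(B))

theorem VN (h : Lk D A B) : Om A ≤ 𝐍(B) := h.U_eq.ge.trans inf_le_right

theorem cmVV (h : Lk D A B) {u w : G} (hu : u ∈ Om A) (hw : w ∈ Om B) : ⁅u, w⁆ = 1 :=
  h.cmU (h.U_eq.ge hu) (h.symm.U_eq.ge hw)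

theorem cV (h : Lk D A B) : Om B ≤ 𝐂(Om A) := fun _ hw => mem_cen_iff'.2 fun _ hu => h.cmVV hu hw

theorem cm_mem (h : Lk D A B) {a u : G} (ha : a ∈ A) (hu : u ∈ Om B) : ⁅a, u⁆ ∈ Om A :=
  h.pA.cm_K' (h.cV hu) ha

theorem reg (h : Lk D A B) {a u : G} (ha : a ∈ A) (hu : u ∈ Om B) (hu1 : u ≠ 1) (e : ⁅a, u⁆ = 1) :
    a ∈ Om A := h.U_eq ▸ h.regU ha (Om_le B hu) hu1 e

theorem eq_one (h : Lk D A B) {a u : G} (ha : a ∈ A) (ha' : a ∉ Om A) (hu : u ∈ Om B)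
    (e : ⁅a, u⁆ = 1) : u = 1 := by
  by_contra hu1; exact ha' (h.reg ha hu hu1 e)

theorem not_cen (h : Lk D A B) {u : G} (hu : u ∈ Om B) (hc : u ∈ 𝐂(A)) : u = 1 := by
  obtain ⟨a, ha, ha'⟩ := h.pA.exists_not_mem
  exact h.eq_one ha ha' hu (mem_cen_iff'.1 hc a ha)

theorem VV (h : Lk D A B) {u : G} (h1 : u ∈ Om A) (h2 : u ∈ Om B) : u = 1 :=
  h.F.eq_one h.hA h.hB h.ne (Om_le A h1) (Om_le B h2)

theorem inj (h : Lk D A B) {a u w : G} (ha : a ∈ A) (ha' : a ∉ Om A) (hu : u ∈ Om B)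
    (hw : w ∈ Om B) (e : ⁅u, a⁆ = ⁅w, a⁆) : u = w := by
  rw [← h.pB.vinv hw, ← mul_eq_one_iff_eq_inv]
  refine h.eq_one ha ha' (mul_mem hu hw) (cm_symm ?_)
  rw [h.pA.cml_K (h.cV hu) (h.cV hw) ha, e, h.pA.vsq (h.pA.cm_K (h.cV hw) ha)]

theorem surj (h : Lk D A B) {a v : G} (ha : a ∈ A) (ha' : a ∉ Om A) (hv : v ∈ Om A) :
    ∃ u ∈ Om B, ⁅u, a⁆ = v := by
  let f : Om B → Om A := fun u => ⟨⁅(u : G), a⁆, h.pA.cm_K (h.cV u.2) ha⟩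
  have hf : Function.Bijective f := by
    rw [Nat.bijective_iff_injective_and_card]
    exact ⟨fun u w e => Subtype.ext (h.inj ha ha' u.2 w.2 (congrArg Subtype.val e)),
      h.F.card_Om h.hB h.hA⟩
  obtain ⟨u, hu⟩ := hf.2 ⟨v, hv⟩
  exact ⟨u, u.2, congrArg Subtype.val hu⟩

theorem mem_E (h : Lk D A B) {e : G} : e ∈ Om A ⊔ Om B ↔ ∃ u ∈ Om A, ∃ w ∈ Om B, e = u * w :=
  mem_sup_of_le_normalizer_left (le_normalizer_of_le_centralizer h.cV)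

theorem E_ab (h : Lk D A B) : Om A ⊔ Om B ≤ 𝐂((Om A ⊔ Om B : Subgroup G)) := h.EU_eq ▸ h.EU_ab

theorem E_sq (h : Lk D A B) : ∀ e ∈ Om A ⊔ Om B, e * e = 1 := h.EU_eq ▸ h.EU_sq

theorem pt1 (h : Lk D A B) : Ept D (Om A ⊔ Om B) A := h.EU_eq ▸ h.ept

theorem pt2 (h : Lk D A B) : Ept D (Om A ⊔ Om B) B := h.EU_eq ▸ h.ept'

theorem HE (h : Lk D A B) : A ⊔ B ≤ 𝐍((Om A ⊔ Om B : Subgroup G)) := sup_le h.pt1.nrm h.pt2.nrm

theorem EK (h : Lk D A B) : Om A ⊔ Om B ≤ 𝐂(Om A) := sup_le h.pA.Vab h.cV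

theorem not_mem_E (h : Lk D A B) {a : G} (ha : a ∈ A) (ha' : a ∉ Om A) : a ∉ Om A ⊔ Om B :=
  fun e => ha' (mem_Om_of ha (h.E_sq a e))

theorem mem_of_cen (h : Lk D A B) {e : G} (he : e ∈ Om A ⊔ Om B) (hc : e ∈ 𝐂(A)) : e ∈ Om A := by
  obtain ⟨a, ha, ha'⟩ := h.pA.exists_not_mem
  exact mem_Om_of (h.pt1.reg a ha (h.not_mem_E ha ha') e he (mem_cen_iff'.1 hc a ha)) (h.E_sq e he)

theorem swap (h : Lk D A B) : ∃ g ∈ A ⊔ B, A ^ᶜ g = B := by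
  obtain ⟨a, ha, ha'⟩ := h.pA.exists_not_mem
  obtain ⟨b, hb, hb'⟩ := h.pB.exists_not_mem
  obtain ⟨g, h1, h2, -⟩ := h.swapU ha (by rw [h.EU_eq]; exact h.not_mem_E ha ha') hb
    (by rw [h.EU_eq, sup_comm]; exact h.symm.not_mem_E hb hb')
  exact ⟨g, h1, h2⟩

theorem cenV_of (h : Lk D A B) {c : G} (h1 : c ∈ 𝐂(A)) (h2 : c ∈ 𝐍(B)) : c ∈ 𝐂(Om B) := by
  obtain ⟨a, ha, ha'⟩ := h.pA.exists_not_mem
  refine mem_cen_iff.2 fun u hu => ?_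
  rw [commutatorElement_def, mul_inv_eq_one]
  refine h.inj ha ha' (conj_mem_of_mem_normalizer (norm_Om B h2) hu) hu ?_
  rw [← conj_eq_of_mem_centralizer (h.pA.CV h1) (h.pA.cm_K (h.cV hu) ha), cm_conj,
    conj_eq_of_mem_centralizer h1 ha]

theorem cenE (_ : Lk D A B) {c : G} (h1 : c ∈ 𝐂(Om A)) (h2 : c ∈ 𝐂(Om B)) :
    c ∈ 𝐂((Om A ⊔ Om B : Subgroup G)) := by
  rw [centralizer_sup]; exact ⟨h1, h2⟩

theorem cm_H (h : Lk D A B) {c : G} (h1 : c ∈ 𝐂(Om A)) (h2 : c ∈ 𝐂(Om B)) {g : G}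
    (hg : g ∈ A ⊔ B) : ⁅g, c⁆ ∈ Om A ⊔ Om B := by
  have : A ⊔ B ≤ rc (Om A ⊔ Om B) (zpowers c) := by
    have k : ∀ x ∈ zpowers c, x ∈ 𝐂(Om A) ∧ x ∈ 𝐂(Om B) := fun x hx =>
      ⟨zpowers_le.2 h1 hx, zpowers_le.2 h2 hx⟩
    exact sup_le (fun a ha => ⟨h.pt1.nrm ha, fun x hx => mem_sup_left (h.pA.cm_K' (k x hx).1 ha)⟩)
      (fun a ha => ⟨h.pt2.nrm ha, fun x hx => mem_sup_right (h.pB.cm_K' (k x hx).2 ha)⟩)
  exact (this hg).2 c (mem_zpowers c)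

theorem C0 (h : Lk D A B) {c : G} (h1 : c ∈ 𝐂(A)) (h2 : c ∈ 𝐍(B)) :
    ∃ v ∈ Om A, v * c ∈ 𝐂(B) := by
  obtain ⟨g, hg, e⟩ := h.swap
  obtain ⟨v, hv, u, hu, e1⟩ := h.mem_E.1 (h.cm_H (h.pA.CV h1) (h.cenV_of h1 h2) hg)
  have h3 : g * c * g⁻¹ ∈ 𝐂(B) := by rw [← e, ← cj_centralizer]; exact cj_mem g h1
  refine ⟨v, hv, ?_⟩
  have : v * c = u⁻¹ * (g * c * g⁻¹) := by
    calc v * c = u⁻¹ * (u * v * u⁻¹) * u * c := by group
      _ = u⁻¹ * (v * u) * c := by rw [conj_eq_of_cm (cm_symm (h.cmVV hv hu))]; group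
      _ = _ := by rw [← e1, commutatorElement_def]; group
  rw [this]
  exact mul_mem (inv_mem (h.pB.VC hu)) h3

/-- an involution of `C(A) ∩ (A · N(B))` normalizes `B` -/
theorem norm_of_inv (h : Lk D A B) {x a : G} (hx : x ∈ 𝐂(A)) (hx2 : x * x = 1) (ha : a ∈ A)
    (hn : a⁻¹ * x ∈ 𝐍(B)) : x ∈ 𝐍(B) := by
  have h1 := mul_mem (h.pA.ab (inv_mem ha)) hx
  obtain ⟨v, hv, h2⟩ := h.C0 h1 hn
  have hva := mul_mem (Om_le A hv) (inv_mem ha)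
  have h3 : v * a⁻¹ * (v * a⁻¹) ∈ 𝐂(B) := by
    have := mul_mem h2 h2
    convert this using 1
    calc v * a⁻¹ * (v * a⁻¹) = v * a⁻¹ * (x * (v * a⁻¹) * x⁻¹) * (x * x) := by
          rw [conj_eq_of_mem_centralizer hx hva, hx2, mul_one]
      _ = _ := by group
  have h4 := h.symm.not_cen (h.pA.sq_mem hva) h3
  have h5 : a ∈ Om A := by simpa using inv_mem (mul_mem (inv_mem hv) (mem_Om_of hva h4))
  simpa using mul_mem (h.VN h5) hn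

theorem fixE {x : G} (h : Lk D A (A ^ᶜ x)) (hx : x * x = 1) {e : G}
    (he : e ∈ Om A ⊔ Om (A ^ᶜ x)) (hc : ⁅x, e⁆ = 1) : ∃ u ∈ Om A, e = ⁅u, x⁆ := by
  obtain ⟨u, hu, w, hw, rfl⟩ := h.mem_E.1 he
  rw [← cj_Om] at hw
  obtain ⟨w, hw', rfl⟩ := mem_cj'.1 hw
  have hu' : x * u * x⁻¹ ∈ Om (A ^ᶜ x) := by rw [← cj_Om]; exact cj_mem x hu
  have hw'' : x * w * x⁻¹ ∈ Om (A ^ᶜ x) := by rw [← cj_Om]; exact hw
  have e1 : x * u * x⁻¹ * w = u * (x * w * x⁻¹) := by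
    rw [← conj_eq_of_cm hc]
    calc x * u * x⁻¹ * w = x * u * x⁻¹ * ((x * x) * w * (x * x)⁻¹) := by rw [hx]; group
      _ = _ := by group
  have e2 : u⁻¹ * w = (x * w * x⁻¹) * (x * u * x⁻¹)⁻¹ := by
    calc u⁻¹ * w = u⁻¹ * ((x * u * x⁻¹) * w * (x * u * x⁻¹)⁻¹) := by
          rw [conj_eq_of_cm (cm_symm (h.cmVV hw' hu'))]
      _ = _ := by rw [e1]; group
  have e3 := h.VV (mul_mem (inv_mem hu) hw') (e2 ▸ mul_mem hw'' (inv_mem hu'))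
  rw [inv_mul_eq_one] at e3
  subst e3
  exact ⟨u, hu, by rw [commutatorElement_def, h.pA.vinv hu]; group⟩

theorem middle {x : G} (h : Lk D A (A ^ᶜ x)) (hx : x * x = 1) :
    ∃ P ∈ D, ∃ p ∈ P, p ∉ Om P ∧ Om P ≤ Om A ⊔ Om (A ^ᶜ x) ∧ p⁻¹ * x ∈ 𝐍(A) ∧ x ∈ 𝐍(P) := by
  obtain ⟨a, ha, ha'⟩ := h.pA.exists_not_mem
  set E := Om A ⊔ Om (A ^ᶜ x) with hE
  have hxE : x ∈ 𝐍(E) := by
    rw [← cj_eq_self_iff, hE, cj_sup, cj_Om, cj_Om, cj_cj, hx, cj_one, sup_comm]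
  have haE := h.not_mem_E ha ha'
  have hb := cj_mem x ha
  have hbE := not_mem_conj hxE haE
  set b := x * a * x⁻¹ with hbd
  have na := h.pt1.nrm ha
  have nb := h.pt2.nrm hb
  have X2 := h.pt1.act_sq h.E_ab ha
  have Y2 := h.pt2.act_sq h.E_ab hb
  have hodd := h.oddU ha (by rwa [h.EU_eq]) hb (by rwa [h.EU_eq])
  rw [h.EU_eq] at hodd
  set X := act E a
  set Y := act E b
  obtain ⟨j, hj⟩ : ∃ j : ℕ, (X * Y) ^ (2 * j) * (X * Y) ^ (2 * j) = X * Y := by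
    obtain ⟨m, hm⟩ := hodd
    refine ⟨(m + 1) ^ 2, ?_⟩
    rw [← pow_add, show 2 * (m + 1) ^ 2 + 2 * (m + 1) ^ 2 = (2 * m + 1) * (2 * m + 3) + 1 by ring,
      ← hm, pow_succ, pow_mul, pow_orderOf_eq_one, one_pow, one_mul]
  have nj := inv_mem (pow_mem (mul_mem na nb) j)
  set g := ((a * b) ^ j)⁻¹ with hg
  have np := mul_mem (mul_mem nj na) (inv_mem nj)
  have e : act E (g * a * g⁻¹) = X * (X * Y) ^ (2 * j) := by
    rw [act_mul (mul_mem nj na) (inv_mem nj), act_mul nj na, act_inv nj, hg,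
      act_inv (inv_mem_iff.1 nj), act_pow (mul_mem na nb), act_mul na nb, inv_inv, dih_even X2 Y2]
  have hP := h.pt1.cj h.F nj
  have hpE := not_mem_conj nj haE
  set p := g * a * g⁻¹
  have hY : Y = X * (X * Y) := by rw [← mul_assoc, X2, one_mul]
  have hc := dih_conj X2 Y2 (2 * j)
  set Z := (X * Y) ^ (2 * j)
  have xi : X⁻¹ = X := inv_eq_of_mul_eq_one_right X2
  refine ⟨_, hP.mem, p, cj_mem g ha, fun h1 => hpE ?_, ?_, ?_, ?_⟩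
  · rw [← cj_Om] at h1
    exact cj_le_of_mem_normalizer le_sup_left nj h1
  · rw [← cj_Om]; exact cj_le_of_mem_normalizer le_sup_left nj
  · rw [← cj_eq_self_iff, ← cj_cj, cj_eq_iff, inv_inv]
    refine ((h.pt1.cj h.F np).eq h.F h.pt2 (cj_mem p ha) hb hbE ?_).symm
    rw [act_mul (mul_mem np na) (inv_mem np), act_mul np na, act_inv np, e]
    change X * Z * X * (X * Z)⁻¹ = Y
    rw [hY, ← hj]
    calc X * Z * X * (X * Z)⁻¹ = X * Z * (X * Z⁻¹ * X⁻¹) := by group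
      _ = X * Z * (X * Z * X⁻¹)⁻¹ := by group
      _ = _ := by rw [hc]; group
  · rw [← cj_eq_self_iff]
    refine (hP.cj h.F hxE).eq h.F hP (cj_mem x (cj_mem g ha)) (cj_mem g ha) hpE ?_
    have t1 : act E x * X * (act E x)⁻¹ = Y := by
      rw [← act_inv hxE, ← act_mul hxE na, ← act_mul (mul_mem hxE na) (inv_mem hxE)]
    have t2 : act E x * Y * (act E x)⁻¹ = X := by
      rw [← act_inv hxE, ← act_mul hxE nb, ← act_mul (mul_mem hxE nb) (inv_mem hxE)]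
      congr 1
      calc x * b * x⁻¹ = (x * x) * a * (x * x)⁻¹ := by rw [hbd]; group
        _ = a := by rw [hx]; group
    have t3 : act E x * Z * (act E x)⁻¹ = Z⁻¹ := by
      rw [← conj_pow, ← inv_pow]
      congr 1
      rw [mul_inv_rev, xi, inv_eq_of_mul_eq_one_right Y2]
      calc _ = act E x * X * (act E x)⁻¹ * (act E x * Y * (act E x)⁻¹) := by group
        _ = _ := by rw [t1, t2]
    rw [act_mul (mul_mem hxE np) (inv_mem hxE), act_mul hxE np, act_inv hxE, e]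
    calc _ = act E x * X * (act E x)⁻¹ * (act E x * Z * (act E x)⁻¹) := by group
      _ = _ := by rw [t1, t3, hY, ← hj]; group

/-- The key lemma on an involution `x` centralizing `Ω₁(B)` such that `Ω₁(A)^x` commutes with
`Ω₁(A)`. -/
theorem lemX (h : Lk D B A) {x : G} (hxK : x ∈ 𝐂(Om B)) (hx : x * x = 1) (hn : x ∉ 𝐍(A))
    (hc : Om A ^ᶜ x ≤ 𝐂(Om A)) :
    A ^ᶜ x ≤ 𝐂(A) ∨ ∃ P, Lk D P A ∧ (P = B ∨ P ≤ 𝐂(B)) ∧ x ∈ 𝐍(P) ∧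
      (∃ p ∈ P, p ∉ Om P ∧ p⁻¹ * x ∈ 𝐍(A)) ∧
      (∃ u ∈ Om A, ⁅u, x⁆ ∈ Om P ∧ ⁅u, x⁆ ≠ 1) ∧
      (x ∈ 𝐂(Om P) → ∀ u ∈ Om A, ⁅u, x⁆ ∈ Om P) := by
  have F := h.F
  have pA := h.pB
  obtain ⟨v, hv, hv1⟩ := pA.exists_ne
  rcases F.tri h.hB (F.cj h.hB x) (cj_mem x (Om_le A hv)) (pA.cenV (hc (cj_mem x hv)))
    (fun e => hv1 (conj_eq_one_iff.1 e)) with h1 | h1 | h1
  · exact absurd (cj_eq_self_iff.1 h1.symm) hn
  · exact Or.inl h1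
  right
  obtain ⟨P, hP, p, hp, hp', h2, h3, h4⟩ := h1.middle hx
  have pP := F.pt hP
  obtain ⟨w, hw, hw1⟩ := pP.exists_ne
  obtain ⟨w', hw', hw1', h5⟩ := exists_fixed pP.Vab (fun _ => pP.vsq) le_rfl (z := x)
    (fun u hu => conj_mem_of_mem_normalizer (norm_Om P h4) hu) (fun u _ => by rw [hx]; group) hw hw1
  obtain ⟨u, hu, rfl⟩ := h1.fixE hx (h2 hw') h5
  have h6 : ⁅u, x⁆ ∈ 𝐂(B) := h.pA.cmK (h.cV hu) hxK
  have hpn : p ∉ 𝐍(A) := fun e => hn (by simpa using mul_mem e h3)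
  refine ⟨P, ?_, ?_, h4, ⟨p, hp, hp', h3⟩, ⟨u, hu, hw', hw1'⟩, fun hxP => ?_⟩
  · refine Lk.symm ?_
    rcases F.tri h.hB hP (Om_le P hw) (pA.cenV (h1.EK (h2 hw))) hw1 with e | e | e
    · exact absurd (le_normalizer (e ▸ hp)) hpn
    · exact absurd (centralizer_le_normalizer _ (e hp)) hpn
    · exact e
  · rcases F.tri h.hA hP (Om_le P hw') (centralizer_le_normalizer _ h6) hw1' with e | e | e
    · exact Or.inl e.symm
    · exact Or.inr e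
    · exact absurd (e.not_cen hw' h6) hw1'
  · have k : ∀ w : Om P, ∃ u : Om A, (w : G) = ⁅(u : G), x⁆ := fun w => by
      obtain ⟨u, hu, e⟩ := h1.fixE hx (h2 w.2) (mem_cen_iff.1 hxP w w.2)
      exact ⟨⟨u, hu⟩, e⟩
    choose f hf using k
    have hb : Function.Bijective f := by
      rw [Nat.bijective_iff_injective_and_card]
      exact ⟨fun a b e => Subtype.ext (by rw [hf, hf, e]), F.card_Om hP h.hB⟩
    intro u hu
    obtain ⟨w, e⟩ := hb.2 ⟨u, hu⟩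
    have := hf w
    rw [e] at this
    exact this ▸ w.2

end Lk

end H23.TA
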