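import Mathlib
import Cfsg.Agent.Base
import Cfsg.Agent.Lib.TI2.Ab3
import Cfsg.Agent.Lib.H71.Sidki

/-!
# Abelian TI-subgroups of exponent four, IV: commuting points
-/

set_option autoImplicit false
set_option linter.unusedSectionVars false

namespace H23.TA

open Subgroup H69 H23.TI Cfsg
open scoped commutatorElement

variable {G : Type*} [Group G] [Finite G] {D : Set (Subgroup G)} {A B P : Subgroup G}

theorem baer {M : Subgroup G} {t : G} (ht : t ∈ M) (h2 : t * t = 1) (h : t ∉ pCoreOf 2 M) :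
    ∃ ρ ∈ M, ρ ≠ 1 ∧ Odd (orderOf ρ) ∧ t * ρ * t⁻¹ = ρ⁻¹ := by
  obtain ⟨x, h1, h3, h4⟩ := H71.exists_inverted_of_not_mem_pCore (G := M) (t := ⟨t, ht⟩)
    (Subtype.ext h2) fun e => h ⟨_, e, rfl⟩
  exact ⟨x, x.2, fun e => h1 (Subtype.ext e), by rwa [Subgroup.orderOf_coe],
    congrArg Subtype.val h4⟩

theorem mem_of_sq_mem {H : Subgroup G} {ρ : G} (h : Odd (orderOf ρ)) (h2 : ρ * ρ ∈ H) : ρ ∈ H := by
  obtain ⟨k, hk⟩ := h
  have : ρ = (ρ * ρ) ^ (k + 1) := by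
    rw [← pow_two, ← pow_mul, show 2 * (k + 1) = 2 * k + 1 + 1 by ring, ← hk, pow_succ,
      pow_orderOf_eq_one, one_mul]
  rw [this]; exact pow_mem h2 _

theorem odd_sq {ρ : G} (h : Odd (orderOf ρ)) : Odd (orderOf (ρ * ρ)) := by
  rw [← pow_two]; exact h.of_dvd_nat (orderOf_pow_dvd 2)

theorem eq_one_of_sq {ρ : G} (h : Odd (orderOf ρ)) (h2 : ρ * ρ = 1) : ρ = 1 :=
  mem_bot.1 (mem_of_sq_mem h (mem_bot.2 h2))

namespace Fam

theorem far (F : Fam D) (hA : A ∈ D) (hB : B ∈ D) (h : ¬ Om B ≤ 𝐂(Om A)) {x : G} (h1 : x ∈ B)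
    (h2 : x ∈ 𝐍(A)) : x = 1 := by
  by_contra h3
  rcases F.tri hA hB h1 h2 h3 with rfl | e | e
  · exact h (F.pt hA).Vab
  · exact h ((Om_le B).trans (e.trans (F.pt hA).CV))
  · exact h e.cV

theorem lemN (F : Fam D) (hA : A ∈ D) (hB : B ∈ D) {W : Subgroup G} (h1 : A ≤ W) (h2 : W ≤ 𝐂(W))
    (h3 : Om B ≤ 𝐍(W)) : Om B ≤ 𝐂(Om A) := by
  by_contra hn
  have pA := F.pt hA
  have pB := F.pt hB
  obtain ⟨b, hb, hb1⟩ := pA.ne
  have hc : ∀ x ∈ W, ∀ y ∈ W, x * y = y * x := fun x hx y hy => h2 hy x hx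
  have hbW := h1 hb
  have k : ∀ v ∈ Om B, v ≠ 1 → ∀ w ∈ Om B,
      w * b * w⁻¹ * (w * v * b * (w * v)⁻¹) = b * (v * b * v⁻¹) := by
    intro v hv hv1 w hw
    have h4 := conj_mem_of_mem_normalizer (h3 hv) hbW
    have h5 : b * (v * b * v⁻¹) ∈ 𝐍(B) := by
      refine pB.ti.mem_norm_of_comm (Om_le B hv) hv1 (cm_symm ?_)
      rw [commutatorElement_def, mul_inv_eq_one]
      calc v * (b * (v * b * v⁻¹)) * v⁻¹ = v * b * v⁻¹ * ((v * v) * b * (v * v)⁻¹) := by group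
        _ = _ := by rw [pB.vsq hv, one_mul, inv_one, mul_one, hc _ h4 _ hbW]
    have h6 := F.far hA hB hn (cm_mem_left (Om_le B hw) h5) (centralizer_le_normalizer _
      (centralizer_anti h1 (h2 (cm_mem_right (h3 hw) (mul_mem hbW h4)))))
    rw [← conj_eq_of_cm h6]; group
  obtain ⟨v, hv, w, hw, hv1, hw1, hvw⟩ := pB.four
  have e1 := k v hv hv1 w hw
  have e2 := k (w * v) (mul_mem hw hv)
    (fun e => hvw (by rw [← pB.vinv hw]; exact eq_inv_of_mul_eq_one_right e)) w hw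
  rw [← mul_assoc w w, pB.vsq hw, one_mul] at e2
  have m1 := conj_mem_of_mem_normalizer (h3 hw) hbW
  have m2 := conj_mem_of_mem_normalizer (h3 hv) hbW
  have m3 := conj_mem_of_mem_normalizer (h3 (mul_mem hw hv)) hbW
  have e3 : w * b * w⁻¹ * (w * b * w⁻¹) = b * b := by
    set p := w * b * w⁻¹
    set q := v * b * v⁻¹
    set r := w * v * b * (w * v)⁻¹
    have : p * p * (r * q) = b * b * (r * q) := by
      calc p * p * (r * q) = p * (p * r) * q := by group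
        _ = p * (r * p) * q := by rw [hc p m1 r m3]
        _ = (p * r) * (p * q) := by group
        _ = b * (q * b) * r := by rw [e1, e2]; group
        _ = b * b * (q * r) := by rw [hc q m2 b hbW]; group
        _ = _ := by rw [hc q m2 r m3]
    exact mul_right_cancel this
  refine hw1 (F.far hA hB hn (Om_le B hw) (pA.ti.mem_norm (mul_mem hb hb) hb1 ?_))
  rw [← conj_sq, e3]
  exact mul_mem hb hb

theorem two_sup (F : Fam D) (hA : A ∈ D) (hB : B ∈ D) (h : A ≤ 𝐍(B)) :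
    IsPGroup 2 (A ⊔ QQ B : Subgroup G) :=
  isPGroup_sup_of_le_normalizer_right (F.pt hA).isP (F.pt hB).Q2 (h.trans (F.pt hB).Qn)

theorem sqQ (F : Fam D) (hA : A ∈ D) (hB : B ∈ D) (h : A ≤ 𝐍(B)) {a : G} (ha : a ∈ A) :
    a * a ∈ QQ B := by
  haveI : Fact (Nat.Prime 2) := ⟨Nat.prime_two⟩
  have pB := F.pt hB
  have hW := F.ncl_ab hA (F.two_sup hA hB h) le_sup_left
  have := H79.TI.mem_of_frattini (G := 𝐍(B)) (p := 2) (g := ⟨a, h ha⟩ * ⟨a, h ha⟩)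
    (fun x hx => by
      obtain ⟨y, hy, e⟩ := pB.cen x x.2 (by
        rintro _ ⟨y, hy, rfl⟩
        exact congrArg Subtype.val (hx y hy))
      rwa [← Subtype.ext e])
    (fun q hq => by
      have h1 : ⁅(⟨a, h ha⟩ : 𝐍(B)), q⁆ ∈ pCore 2 𝐍(B) :=
        cm_mem_right (le_normalizer_of_normal (mem_top _)) hq
      have h2 : ⁅a, (q : G)⁆ ∈ ncl A (A ⊔ QQ B) := cm_mem_left (le_ncl _ _ ha)
        (le_normalizer_ncl _ _ (mem_sup_right ⟨q, hq, rfl⟩))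
      convert H5.pow_mem_map_frattini H1.isPGroup_pCore h1 using 1
      rw [cm_mul_left, pow_two]
      congr 1
      exact Subtype.ext (conj_eq_of_mem_centralizer (hW (le_ncl _ _ ha)) h2))
  exact ⟨_, this, rfl⟩

theorem VQ (F : Fam D) (hA : A ∈ D) (hB : B ∈ D) (h : A ≤ 𝐂(B)) : Om A ≤ QQ B := by
  intro v hv
  by_contra hn
  have pA := F.pt hA
  have pB := F.pt hB
  have hN : A ≤ 𝐍(B) := h.trans (centralizer_le_normalizer _)
  obtain ⟨ρ, hρ, h1, h2, h3⟩ := baer (hN (Om_le A hv)) (pA.vsq hv) hn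
  have hA2 := F.cj hA ρ
  have pA2 := F.pt hA2
  have hN2 : A ^ᶜ ρ ≤ 𝐍(B) := cj_le_of_mem hN hρ
  have hv2 : ρ * v * ρ⁻¹ ∈ Om (A ^ᶜ ρ) := by rw [← cj_Om]; exact cj_mem ρ hv
  set v2 := ρ * v * ρ⁻¹ with hv2d
  have e1 : v2 * v = ρ * ρ := by
    calc v2 * v = ρ * (v * ρ * v⁻¹)⁻¹ * (v * v) := by rw [hv2d]; group
      _ = _ := by rw [h3, pA.vsq hv]; group
  have nc : ¬ Om (A ^ᶜ ρ) ≤ 𝐂(Om A) := fun e => by
    refine h1 (eq_one_of_sq h2 (eq_one_of_sq (odd_sq h2) ?_))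
    rw [← e1]
    calc v2 * v * (v2 * v) = (v2 * v * v2⁻¹) * (v2 * v2) * v := by group
      _ = 1 := by rw [conj_eq_of_mem_centralizer (e hv2) hv, pA2.vsq hv2, mul_one, pA.vsq hv]
  have nc' : ¬ Om A ≤ 𝐂(Om (A ^ᶜ ρ)) := fun e => nc (le_centralizer_iff.1 e)
  have hW := F.ncl_ab hA2 (F.two_sup hA2 hB hN2) le_sup_left
  set W := ncl (A ^ᶜ ρ) (A ^ᶜ ρ ⊔ QQ B)
  have hQW : QQ B ≤ 𝐍(W) := le_sup_right.trans (le_normalizer_ncl _ _)
  have hAW : A ^ᶜ ρ ≤ W := le_ncl _ _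
  set J := Om A ⊓ QQ B
  set N := W ⊓ QQ B ⊓ 𝐍(A)
  have hNJ : N ≤ 𝐂(J) := fun y hy => mem_cen_iff.2 fun u hu =>
    F.far hA2 hA nc' (cm_mem_right hy.2 (Om_le A hu.1)) (centralizer_le_normalizer _
      (centralizer_anti hAW (hW (cm_mem_left hy.1.1 (hQW hu.2)))))
  have hJJ : J ≤ 𝐂(J) := inf_le_left.trans (pA.Vab.trans (centralizer_anti inf_le_left))
  have hT : ∀ x ∈ J ⊔ N, ∃ u ∈ J, ∃ y ∈ N, x = u * y := fun x hx =>
    (mem_sup_of_le_normalizer_left (le_normalizer_of_le_centralizer hNJ)).1 hx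
  have n1 : v ∈ 𝐍((J ⊔ N : Subgroup G)) := by
    refine mem_normalizer_of_cj_le fun x hx => ?_
    obtain ⟨x, hx', rfl⟩ := mem_cj'.1 hx
    obtain ⟨u, hu, y, hy, rfl⟩ := hT x hx'
    have : v * (u * y) * v⁻¹ = v * u * v⁻¹ * ⁅v, y⁆ * y := by rw [commutatorElement_def]; group
    rw [this, conj_eq_of_mem_centralizer (pA.Vab hv) hu.1]
    exact mul_mem (mem_sup_left (mul_mem hu ⟨cm_mem_left hv (norm_Om A hy.2),
      cm_mem_right (pB.Qn (hN (Om_le A hv))) hy.1.2⟩)) (mem_sup_right hy)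
  have n2 : v2 ∈ 𝐍((J ⊔ N : Subgroup G)) := by
    refine mem_normalizer_of_cj_le fun x hx => ?_
    obtain ⟨x, hx', rfl⟩ := mem_cj'.1 hx
    obtain ⟨u, hu, y, hy, rfl⟩ := hT x hx'
    have hv2W := hAW (Om_le _ hv2)
    have : v2 * (u * y) * v2⁻¹ = ⁅v2, u⁆ * u * (v2 * y * v2⁻¹) := by
      rw [commutatorElement_def]; group
    rw [this, conj_eq_of_mem_centralizer (hW hv2W) hy.1.1]
    refine mul_mem (mul_mem (mem_sup_right ⟨⟨cm_mem_left hv2W (hQW hu.2),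
      cm_mem_right (pB.Qn (hN2 (Om_le _ hv2))) hu.2⟩, ?_⟩) (mem_sup_left hu)) (mem_sup_right hy)
    by_cases hu1 : u = 1
    · rw [hu1, commutatorElement_one_right]; exact one_mem _
    refine pA.ti.mem_norm_of_comm (Om_le A hu.1) hu1 (cm_symm ?_)
    have h4 := conj_mem_of_mem_normalizer (hQW hu.2) hv2W
    rw [commutatorElement_def u, mul_inv_eq_one, commutatorElement_def, pA2.vinv hv2]
    calc u * (v2 * u * v2 * u⁻¹) * u⁻¹ = u * v2 * u⁻¹ * ((u * u) * v2 * (u * u)⁻¹) := by group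
      _ = u * v2 * u⁻¹ * v2 := by rw [pA.vsq hu.1]; group
      _ = _ := by rw [hW hv2W _ h4]; group
  have n3 := mem_of_sq_mem h2 (e1 ▸ mul_mem n2 n1)
  obtain ⟨a, ha, ha1⟩ := pA.ne
  have haJ : a * a ∈ J := ⟨pA.sq_mem ha, F.sqQ hA hB hN ha⟩
  have h5 := sup_le hJJ hNJ (conj_mem_of_mem_normalizer n3 (mem_sup_left haJ))
  exact ha1 (conj_eq_one_iff.1 (F.far hA hA2 nc (cj_mem ρ (mul_mem ha ha))
    (pA.ti.mem_norm_of_comm (mul_mem ha ha) ha1 (mem_cen_iff.1 h5 _ haJ))))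

theorem commX (F : Fam D) (hA : A ∈ D) (hP : P ∈ D) (hB : B ∈ D) (h1 : A ≤ 𝐂(B))
    (h2 : P ≤ 𝐂(B)) : Om P ≤ 𝐂(Om A) :=
  F.lemN hA hP (le_ncl _ _) (F.ncl_ab hA (F.two_sup hA hB (h1.trans (centralizer_le_normalizer _)))
    le_sup_left) ((F.VQ hP hB h2).trans (le_sup_right.trans (le_normalizer_ncl _ _)))

end Fam

/-- the subgroup generated by the `Ω₁(A)` for the points `A` with `Ω₁(A) ≤ Y` or `A ≤ Y` -/
def gen (D : Set (Subgroup G)) (R : Subgroup G → Prop) : Subgroup G :=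
  closure {x | ∃ A ∈ D, R A ∧ x ∈ Om A}

theorem le_gen {R : Subgroup G → Prop} (hA : A ∈ D) (h : R A) : Om A ≤ gen D R :=
  fun _ hx => subset_closure ⟨A, hA, h, hx⟩

theorem gen_le {R : Subgroup G → Prop} {Y : Subgroup G} (h : ∀ A ∈ D, R A → Om A ≤ Y) :
    gen D R ≤ Y := (closure_le _).2 fun _ ⟨A, hA, h1, h2⟩ => h A hA h1 h2

theorem cj_gen_le (F : Fam D) {R R' : Subgroup G → Prop} {g : G}
    (h : ∀ A ∈ D, R A → R' (A ^ᶜ g)) : gen D R ^ᶜ g ≤ gen D R' := by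
  rw [cj_le_iff]
  refine gen_le fun A hA h1 => ?_
  rw [← cj_le_iff, cj_Om]
  exact le_gen (F.cj hA g) (h A hA h1)

abbrev XX (D : Set (Subgroup G)) (B : Subgroup G) : Subgroup G := gen D fun A => A ≤ 𝐂(B)

namespace Fam

theorem XN (F : Fam D) (B : Subgroup G) : 𝐍(B) ≤ 𝐍(XX D B) := fun _ hg =>
  mem_normalizer_of_cj_le (cj_gen_le F fun _ _ h =>
    cj_le_of_mem_normalizer h (normalizer_le_normalizer_centralizer B hg))

theorem XC (_ : Fam D) (B : Subgroup G) : XX D B ≤ 𝐂(B) := gen_le fun A _ h => (Om_le A).trans h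

theorem Xab (F : Fam D) (hB : B ∈ D) : XX D B ≤ 𝐂(XX D B) :=
  gen_le fun _ hA h1 => le_centralizer_iff.1 (gen_le fun _ hP h2 => F.commX hA hP hB h1 h2)

theorem Xsq (F : Fam D) (hB : B ∈ D) {x : G} (hx : x ∈ XX D B) : x * x = 1 :=
  sq_Om (F.Xab hB) (gen_le (Y := Om (XX D B))
    (fun _ hA h _ hy => mem_Om_of (le_gen hA h hy) ((F.pt hA).vsq hy)) hx)

theorem notsub (F : Fam D) (hA : A ∈ D) (hB : B ∈ D) (hne : A ≠ B) :
    ∃ P ∈ D, Om P ≤ 𝐂(Om B) ∧ ¬ Om P ≤ 𝐂(Om A) := by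
  by_contra hn
  push Not at hn
  obtain ⟨g, rfl⟩ := F.tr hB hA
  have pB := F.pt hB
  set X := gen D fun P => Om P ≤ 𝐂(Om B)
  have k : ∀ x, (∀ P ∈ D, Om P ≤ 𝐂(Om B) → Om P ≤ 𝐂(Om (B ^ᶜ x⁻¹))) → x ∈ 𝐍(X) := fun x hx =>
    mem_normalizer_of_cj_le (cj_gen_le F fun P hP h => by
      rw [← cj_Om, cj_le_iff, cj_centralizer, cj_Om]; exact hx P hP h)
  have h1 : 𝐍(B) ≤ 𝐍(X) := fun x hx => k x fun P _ h => by
    rwa [cj_eq_of_mem_normalizer (inv_mem hx)]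
  have h2 : 𝐍(X) ≤ 𝐍(Om (X ⊓ 𝐂(X))) :=
    (le_normalizer_inf le_rfl (normalizer_le_normalizer_centralizer X)).trans (norm_Om _)
  obtain ⟨v, hv, hv1⟩ := pB.exists_ne
  have h3 := pB.max (Om (X ⊓ 𝐂(X)))
    (fun e => hv1 (mem_bot.1 (e ▸ mem_Om_of ⟨le_gen hB pB.Vab hv,
      le_centralizer_iff.1 (gen_le fun _ _ h => h) hv⟩ (pB.vsq hv))))
    (isPGroup_iff_mem.2 fun x hx => ⟨1, by
      rw [pow_one, pow_two, sq_Om (inf_le_right.trans (centralizer_anti inf_le_left)) hx]⟩)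
    (h1.trans h2)
  exact hne (cj_eq_of_mem_normalizer (inv_mem_iff.1 (h3 (h2 (k g⁻¹ (by rwa [inv_inv]))))))

end Fam

end H23.TA
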