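import Mathlib
import Cfsg.Agent.Base
import Cfsg.Agent.Lib.TI2.Ab4

/-!
# Abelian TI-subgroups of exponent four, V: special pairs
-/

set_option autoImplicit false
set_option linter.unusedSectionVars false

namespace H23.TA

open Subgroup H69 H23.TI Cfsg
open scoped commutatorElement

variable {G : Type*} [Group G] [Finite G] {D : Set (Subgroup G)} {A B P A1 A2 Y : Subgroup G}

theorem sq_mul_cm {x y : G} (h : ⁅x, y⁆ = 1) : x * y * (x * y) = x * x * (y * y) := by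
  calc x * y * (x * y) = x * (y * x * y⁻¹) * (y * y) := by group
    _ = _ := by rw [conj_eq_of_cm (cm_symm h)]

/-- every element of `Ω₁(B)` is a square in `B` -/
def SQ (B : Subgroup G) : Prop := ∀ v ∈ Om B, ∃ b ∈ B, b * b = v

theorem Fam.sq (F : Fam D) (hA : A ∈ D) (hB : B ∈ D) (h : SQ A) : SQ B := by
  obtain ⟨g, rfl⟩ := F.tr hA hB
  intro v hv
  rw [← cj_Om] at hv
  obtain ⟨w, hw, rfl⟩ := mem_cj'.1 hv
  obtain ⟨b, hb, rfl⟩ := h w hw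
  exact ⟨_, cj_mem g hb, conj_sq g b⟩

/-- conjugacy under a subgroup -/
def Cj (Y : Subgroup G) (x y : G) : Prop := ∃ g ∈ Y, g * x * g⁻¹ = y

theorem Cj.symm {x y : G} (h : Cj Y x y) : Cj Y y x := by
  obtain ⟨g, hg, rfl⟩ := h
  exact ⟨g⁻¹, inv_mem hg, by group⟩

theorem Cj.trans {x y z : G} (h : Cj Y x y) (h' : Cj Y y z) : Cj Y x z := by
  obtain ⟨g, hg, rfl⟩ := h
  obtain ⟨k, hk, rfl⟩ := h'
  exact ⟨k * g, mul_mem hk hg, by group⟩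

namespace Lk

theorem trans (h : Lk D B A) (h1 : B ⊔ A ≤ Y) (h2 : Y ≤ 𝐍((Om B ⊔ Om A : Subgroup G)))
    (h3 : ∀ u ∈ Om A, u ≠ 1 → ∀ v ∈ Om B, ∃ g ∈ Y, g ∈ 𝐂(Om B) ∧ ⁅g, u⁆ = v) {e e' : G}
    (he : e ∈ Om B ⊔ Om A) (he1 : e ≠ 1) (he' : e' ∈ Om B ⊔ Om A) (he1' : e' ≠ 1) : Cj Y e e' := by
  have k1 : ∀ e ∈ Om B ⊔ Om A, e ∉ Om B → ∀ v ∈ Om B, Cj Y e (v * e) := fun e he he' v hv => by
    obtain ⟨w, hw, u, hu, rfl⟩ := h.mem_E.1 he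
    obtain ⟨g, hg, h4, rfl⟩ := h3 u hu (fun e => he' (by rwa [e, mul_one])) v hv
    refine ⟨g, hg, ?_⟩
    calc g * (w * u) * g⁻¹ = g * w * g⁻¹ * ⁅g, u⁆ * u := by rw [commutatorElement_def]; group
      _ = _ := by
        rw [conj_eq_of_mem_centralizer h4 hw, h.pA.comm (Om_le B hw) (Om_le B hv), mul_assoc]
  have c1 : ∀ u ∈ Om A, u ≠ 1 → ∀ v ∈ Om B, v ≠ 1 → Cj Y u v := fun u hu hu1 v hv hv1 => by
    refine (k1 u (mem_sup_right hu) (fun e => hu1 (h.VV e hu)) v hv).trans (Cj.symm ?_)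
    obtain ⟨g, hg, e⟩ := h.swap
    have e' : Om B ^ᶜ g = Om A := by rw [cj_Om, e]
    obtain ⟨k, hk, e2⟩ := k1 (g⁻¹ * v * g) (conj_mem_of_mem_normalizer' (h.HE hg) (mem_sup_left hv))
      (fun e => hv1 (h.VV hv (e' ▸ mem_cj.2 e))) (g⁻¹ * u * g) (mem_cj.1 (e' ▸ hu))
    refine ⟨g * k * g⁻¹, mul_mem (mul_mem (h1 hg) hk) (inv_mem (h1 hg)), ?_⟩
    calc g * k * g⁻¹ * v * (g * k * g⁻¹)⁻¹ = g * (k * (g⁻¹ * v * g) * k⁻¹) * g⁻¹ := by group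
      _ = u * v * u⁻¹ * u := by rw [e2]; group
      _ = _ := by rw [conj_eq_of_cm (cm_symm (h.cmVV hv hu))]
  obtain ⟨v0, hv0, hv1⟩ := h.pA.exists_ne
  obtain ⟨u0, hu0, hu1⟩ := h.pB.exists_ne
  have c2 : ∀ e ∈ Om B ⊔ Om A, e ≠ 1 → Cj Y e v0 := fun e he he1 => by
    obtain ⟨w, hw, u, hu, rfl⟩ := h.mem_E.1 he
    by_cases e : u = 1
    · subst e
      rw [mul_one] at he1 ⊢
      exact (c1 u0 hu0 hu1 w hw he1).symm.trans (c1 u0 hu0 hu1 v0 hv0 hv1)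
    · exact (k1 u (mem_sup_right hu) (fun e' => e (h.VV e' hu)) w hw).symm.trans
        (c1 u hu e v0 hv0 hv1)
  exact (c2 e he he1).trans (c2 e' he' he1').symm

theorem surjB (h : Lk D B A) (hs : SQ B) {u v : G} (hu : u ∈ Om A) (hu1 : u ≠ 1) (hv : v ∈ Om B) :
    ∃ b ∈ B, ⁅b, u⁆ = v := by
  choose s hs1 hs2 using hs
  let f : Om B → Om B := fun w => ⟨⁅s w w.2, u⁆, h.cm_mem (hs1 w w.2) hu⟩
  have hf : Function.Injective f := fun w w' e => by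
    have e1 : ⁅s w w.2, u⁆ = ⁅s w' w'.2, u⁆ := congrArg Subtype.val e
    have m1 := hs1 w w.2
    have m2 := hs1 w' w'.2
    have h1 := h.pA.vsq (h.reg (mul_mem m1 m2) hu hu1 (cm_symm (by
      rw [h.pA.cmr_K (h.cV hu) m1 m2, ← h.pA.cm_symm_K (h.cV hu) m1,
        ← h.pA.cm_symm_K (h.cV hu) m2, e1, h.pA.vsq (h.cm_mem m2 hu)])))
    rw [h.pA.mul_sq m1 m2, hs2, hs2, mul_eq_one_iff_eq_inv, h.pA.vinv w'.2] at h1
    exact Subtype.ext h1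
  obtain ⟨w, hw⟩ := Finite.surjective_of_injective hf ⟨v, hv⟩
  exact ⟨_, hs1 w w.2, congrArg Subtype.val hw⟩

theorem transH (h : Lk D B A) (hs : SQ B) {e e' : G} (he : e ∈ Om B ⊔ Om A) (he1 : e ≠ 1)
    (he' : e' ∈ Om B ⊔ Om A) (he1' : e' ≠ 1) : Cj (B ⊔ A) e e' :=
  h.trans le_rfl h.HE (fun _ hu hu1 _ hv => by
    obtain ⟨b, hb, e⟩ := h.surjB hs hu hu1 hv
    exact ⟨b, mem_sup_left hb, h.pA.BV hb, e⟩) he he1 he' he1'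

theorem ptz (h : Lk D B A) (hs : SQ B) (hP : P ∈ D) {e z : G} (he : e ∈ Om B ⊔ Om A) (he1 : e ≠ 1)
    (h1 : z ∈ 𝐂(B)) (h2 : z ∈ 𝐂(A)) (h3 : e * z ∈ Om P) {e' : G} (he' : e' ∈ Om B ⊔ Om A)
    (he1' : e' ≠ 1) : ∃ R ∈ D, e' * z ∈ Om R := by
  obtain ⟨g, hg, rfl⟩ := h.transH hs he he1 he' he1'
  have h4 : z ∈ 𝐂((B ⊔ A : Subgroup G)) := by rw [centralizer_sup]; exact ⟨h1, h2⟩
  refine ⟨_, h.F.cj hP g, ?_⟩
  rw [← cj_Om, ← conj_eq_of_cm (mem_cen_iff'.1 h4 g hg), conj_mul]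
  exact cj_mem g h3

end Lk

/-- a special pair of points linked to `B` -/
structure Sp (D : Set (Subgroup G)) (B A1 A2 : Subgroup G) : Prop where
  l1 : Lk D B A1
  l2 : Lk D B A2
  nc : ¬ Om A2 ≤ 𝐂(Om A1)
  cm : ∀ u ∈ Om A1, ∀ t ∈ Om A2, ⁅u, t⁆ ∈ Om B

namespace Sp

variable {b b2 u u2 t t2 v : G}

theorem symm (h : Sp D B A1 A2) : Sp D B A2 A1 :=
  ⟨h.l2, h.l1, fun e => h.nc (le_centralizer_iff.1 e), fun u hu t ht => by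
    rw [← commutatorElement_inv]; exact inv_mem (h.cm t ht u hu)⟩

theorem F (h : Sp D B A1 A2) : Fam D := h.l1.F

theorem pB (h : Sp D B A1 A2) : Pt B := h.l1.pA

theorem p1 (h : Sp D B A1 A2) : Pt A1 := h.l1.pB

theorem p2 (h : Sp D B A1 A2) : Pt A2 := h.l2.pB

theorem far (h : Sp D B A1 A2) (ht : t ∈ A2) (hn : t ∈ 𝐍(A1)) : t = 1 :=
  h.F.far h.l1.hB h.l2.hB h.nc ht hn

theorem eq_one (h : Sp D B A1 A2) (hu : u ∈ Om A1) (hu1 : u ≠ 1) (ht : t ∈ Om A2)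
    (e : ⁅t, u⁆ = 1) : t = 1 :=
  h.far (Om_le _ ht) (h.p1.ti.mem_norm_of_comm (Om_le _ hu) hu1 e)

theorem cm_mul (h : Sp D B A1 A2) (ht : t ∈ 𝐂(Om B)) (e : ⁅b, u⁆ ∈ Om B) :
    ⁅t * b, u⁆ = ⁅b, u⁆ * ⁅t, u⁆ := by
  rw [cm_mul_left, conj_eq_of_mem_centralizer ht e]

theorem surj (h : Sp D B A1 A2) (hu : u ∈ Om A1) (hu1 : u ≠ 1) (hv : v ∈ Om B) :
    ∃ t ∈ Om A2, ⁅t, u⁆ = v := by
  let f : Om A2 → Om B := fun t => ⟨⁅(t : G), u⁆, h.symm.cm t t.2 u hu⟩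
  have hf : Function.Bijective f := by
    rw [Nat.bijective_iff_injective_and_card]
    refine ⟨fun t t' e => Subtype.ext ?_, h.F.card_Om h.l2.hB h.l2.hA⟩
    have e1 : ⁅(t : G), u⁆ = ⁅(t' : G), u⁆ := congrArg Subtype.val e
    rw [← h.p2.vinv t'.2, ← mul_eq_one_iff_eq_inv]
    refine h.eq_one hu hu1 (mul_mem t.2 t'.2) ?_
    rw [h.cm_mul (h.l2.cV t.2) (h.symm.cm _ t'.2 u hu), e1, h.pB.vsq (h.symm.cm _ t'.2 u hu)]
  obtain ⟨t, ht⟩ := hf.2 ⟨v, hv⟩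
  exact ⟨t, t.2, congrArg Subtype.val ht⟩

theorem UN (h : Sp D B A1 A2) : Om A2 ≤ 𝐍((Om B ⊔ Om A1 : Subgroup G)) :=
  le_normalizer_of_commutator_le_right (commutator_le.2 fun t ht e he => by
    obtain ⟨v, hv, u, hu, rfl⟩ := h.l1.mem_E.1 he
    have := h.symm.cm t ht u hu
    rw [cm_mul_right, cm_symm (h.l2.cmVV hv ht), one_mul, conj_eq_of_mem_centralizer (h.pB.Vab hv) this]
    exact mem_sup_left this)

theorem sq (h : Sp D B A1 A2) : SQ B := fun v hv => by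
  by_cases hv1 : v = 1
  · exact ⟨1, one_mem _, by rw [hv1, one_mul]⟩
  obtain ⟨b, hb, hb1⟩ := h.pB.ne
  obtain ⟨g, -, e⟩ := h.l1.trans h.l1.HE le_rfl (fun u hu hu1 v hv => by
    obtain ⟨t, ht, e⟩ := h.surj hu hu1 hv
    exact ⟨t, h.UN ht, h.l2.cV ht, e⟩) (mem_sup_left (h.pB.sq_mem hb)) hb1 (mem_sup_left hv) hv1
  exact ⟨_, conj_mem_of_mem_normalizer (h.pB.ti.mem_norm (mul_mem hb hb) hb1 (e ▸ Om_le B hv)) hb,
    by rw [conj_sq, e]⟩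

theorem part (h : Sp D B A1 A2) (ht : t ∈ Om A2) (hb : b ∈ B) (hu : u ∈ Om A1) (hu1 : u ≠ 1)
    (e : ⁅t, u⁆ = ⁅b, u⁆) : t * b ∈ 𝐂(Om A1) := by
  have h1 : t * b ∈ 𝐍(A1) := h.p1.ti.mem_norm_of_comm (Om_le _ hu) hu1 (by
    rw [h.cm_mul (h.l2.cV ht) (h.l1.cm_mem hb hu), e, h.pB.vsq (h.l1.cm_mem hb hu)])
  refine mem_cen_iff.2 fun w hw => h.l1.VV ?_ (cm_mem_right (norm_Om _ h1) hw)
  rw [h.cm_mul (h.l2.cV ht) (h.l1.cm_mem hb hw)]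
  exact mul_mem (h.l1.cm_mem hb hw) (h.symm.cm t ht w hw)

theorem exists_t (h : Sp D B A1 A2) (hb : b ∈ B) : ∃ t ∈ Om A2, t * b ∈ 𝐂(Om A1) := by
  obtain ⟨u, hu, hu1⟩ := h.p1.exists_ne
  obtain ⟨t, ht, e⟩ := h.surj hu hu1 (h.l1.cm_mem hb hu)
  exact ⟨t, ht, h.part ht hb hu hu1 e⟩

theorem exists_b (h : Sp D B A1 A2) (ht : t ∈ Om A2) : ∃ b ∈ B, t * b ∈ 𝐂(Om A1) := by
  obtain ⟨u, hu, hu1⟩ := h.p1.exists_ne
  obtain ⟨b, hb, e⟩ := h.l1.surjB h.sq hu hu1 (h.symm.cm t ht u hu)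
  exact ⟨b, hb, h.part ht hb hu hu1 e.symm⟩

theorem sq1 (h : Sp D B A1 A2) (ht : t ∈ Om A2) (hb : b ∈ B) (h1 : t * b ∈ 𝐂(Om A1)) :
    t * b * (t * b) = 1 := by
  refine h.l1.symm.not_cen ?_ (h.p1.sq_K h1)
  have : t * b * (t * b) = ⁅t, b⁆ * (b * b) := by
    rw [commutatorElement_def, h.p2.vinv ht]; group
  rw [this]
  exact mul_mem (h.pB.cm_K (h.l2.cV ht) hb) (h.pB.sq_mem hb)

theorem inv (h : Sp D B A1 A2) (ht : t ∈ Om A2) (hb : b ∈ B) (h1 : t * b ∈ 𝐂(Om A1)) :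
    ⁅t, b⁆ = b * b := by
  rw [← h.pB.vinv (h.pB.sq_mem hb), ← mul_eq_one_iff_eq_inv, ← h.sq1 ht hb h1,
    commutatorElement_def, h.p2.vinv ht]
  group

theorem part_mul (h : Sp D B A1 A2) (ht2 : t2 ∈ Om A2) (hb : b ∈ B) (h1 : t * b ∈ 𝐂(Om A1))
    (h2 : t2 * b2 ∈ 𝐂(Om A1)) : t * t2 * (b * b2) ∈ 𝐂(Om A1) := by
  have : t * t2 * (b * b2) = t * b * ⁅b⁻¹, t2⁆ * (t2 * b2) := by rw [commutatorElement_def]; group
  rw [this]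
  exact mul_mem (mul_mem h1 (h.l1.symm.cV (h.l2.cm_mem (inv_mem hb) ht2))) h2

theorem pol (h : Sp D B A1 A2) (ht : t ∈ Om A2) (ht2 : t2 ∈ Om A2) (hb : b ∈ B) (hb2 : b2 ∈ B)
    (h1 : t * b ∈ 𝐂(Om A1)) (h2 : t2 * b2 ∈ 𝐂(Om A1)) : ⁅t, b2⁆ = ⁅t2, b⁆ := by
  have e := h.inv (mul_mem ht ht2) (mul_mem hb hb2) (h.part_mul ht2 hb h1 h2)
  have k1 := h.l2.cV ht
  have k2 := h.l2.cV ht2
  rw [h.pB.cml_K k1 k2 (mul_mem hb hb2), h.pB.cmr_K k1 hb hb2, h.pB.cmr_K k2 hb hb2,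
    h.inv ht hb h1, h.inv ht2 hb2 h2, h.pB.mul_sq hb hb2] at e
  have m := h.pB.cm_K k1 hb2
  have m1 := mul_mem hb hb
  have m2 := mul_mem hb2 hb2
  rw [← h.pB.vinv m, inv_eq_iff_mul_eq_one, h.pB.comm (Om_le B m) (Om_le B (h.pB.cm_K k2 hb)),
    ← conj_eq_of_mem_centralizer (h.pB.BV (mul_mem m2 m1)) m, h.pB.comm m2 m1, ← mul_assoc,
    mul_inv_eq_one, h.pB.comm m1 m2]
  simpa only [mul_assoc] using e.trans (h.pB.comm m1 m2)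

theorem cm_part (h : Sp D B A1 A2) (ht : t ∈ Om A2) (hb : b ∈ B) (h1 : t * b ∈ 𝐂(Om A1))
    (hu : u ∈ Om A1) : ⁅t, u⁆ = ⁅b, u⁆ := by
  have := mem_cen_iff.1 h1 u hu
  rw [h.cm_mul (h.l2.cV ht) (h.l1.cm_mem hb hu), mul_eq_one_iff_inv_eq,
    h.pB.vinv (h.l1.cm_mem hb hu)] at this
  exact this.symm

theorem cm_part2 (h : Sp D B A1 A2) (ht : t ∈ Om A2) (hu : u ∈ Om A1) (hb : b ∈ B)
    (h1 : t * b ∈ 𝐂(Om A1)) (h2 : u * b ∈ 𝐂(Om A2)) (hb2 : b2 ∈ B) : ⁅u, b2⁆ = ⁅t, b2⁆ := by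
  obtain ⟨t2, ht2, h3⟩ := h.exists_t hb2
  rw [← h.pB.cm_symm_K (h.l1.cV hu) hb2, ← h.cm_part ht2 hb2 h3 hu, ← commutatorElement_inv,
    h.symm.cm_part hu hb h2 ht2, commutatorElement_inv, h.pol ht ht2 hb hb2 h1 h3]

theorem same (h : Sp D B A1 A2) (ht : t ∈ Om A2) (hu : u ∈ Om A1) (hb : b ∈ B)
    (h1 : t * b ∈ 𝐂(Om A1)) (h2 : u * b ∈ 𝐂(Om A2)) : u * t ∈ 𝐂(B) :=
  mem_cen_iff.2 fun b2 hb2 => by
    rw [h.pB.cml_K (h.l1.cV hu) (h.l2.cV ht) hb2, h.cm_part2 ht hu hb h1 h2 hb2,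
      h.pB.vsq (h.pB.cm_K (h.l2.cV ht) hb2)]

/-- `u` and `t` are the partners of `b` -/
structure Tr (B A1 A2 : Subgroup G) (b u t : G) : Prop where
  hb : b ∈ B
  hu : u ∈ Om A1
  ht : t ∈ Om A2
  c1 : t * b ∈ 𝐂(Om A1)
  c2 : u * b ∈ 𝐂(Om A2)

theorem exists_tr (h : Sp D B A1 A2) (hb : b ∈ B) : ∃ u t, Tr B A1 A2 b u t := by
  obtain ⟨t, ht, h1⟩ := h.exists_t hb
  obtain ⟨u, hu, h2⟩ := h.symm.exists_t hb
  exact ⟨u, t, hb, hu, ht, h1, h2⟩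

theorem Tr.symm (r : Tr B A1 A2 b u t) : Tr B A2 A1 b t u := ⟨r.hb, r.ht, r.hu, r.c2, r.c1⟩

theorem ne_one (h : Sp D B A1 A2) (hb : b ∈ B) (c : u * b ∈ 𝐂(Om A2)) (hb1 : b * b ≠ 1) :
    u ≠ 1 := by
  rintro rfl
  obtain ⟨t, ht, ht1⟩ := h.p2.exists_ne
  exact hb1 (h.pB.vsq (h.l2.reg hb ht ht1 (mem_cen_iff.1 (by simpa using c) t ht)))

theorem yB (h : Sp D B A1 A2) (r : Tr B A1 A2 b u t) : u * (t * b) ∈ 𝐂(B) := by
  rw [← mul_assoc]; exact mul_mem (h.same r.ht r.hu r.hb r.c1 r.c2) (h.pB.ab r.hb)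

theorem y1 (h : Sp D B A1 A2) (r : Tr B A1 A2 b u t) : u * (t * b) ∈ 𝐂(Om A1) :=
  mul_mem (h.p1.Vab r.hu) r.c1

theorem y2 (h : Sp D B A1 A2) (r : Tr B A1 A2 b u t) : u * (t * b) ∈ 𝐂(Om A2) := by
  have : u * (t * b) = ⁅u, t⁆ * (t * (u * b)) := by rw [commutatorElement_def]; group
  rw [this]
  exact mul_mem (h.l2.symm.cV (h.cm u r.hu t r.ht)) (mul_mem (h.p2.Vab r.ht) r.c2)

theorem ysq (h : Sp D B A1 A2) (r : Tr B A1 A2 b u t) : u * (t * b) * (u * (t * b)) = 1 := by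
  calc u * (t * b) * (u * (t * b)) = u * (t * b * u * (t * b)⁻¹) * (t * b * (t * b)) := by group
    _ = 1 := by rw [conj_eq_of_mem_centralizer r.c1 r.hu, h.p1.vsq r.hu, h.sq1 r.ht r.hb r.c1, one_mul]

theorem key (h : Sp D B A1 A2) (r : Tr B A1 A2 b u t) (r2 : Tr B A1 A2 b2 u2 t2)
    (hb1 : b * b ≠ 1) (hb2 : b2 * b2 ≠ 1) :
    ∃ w ∈ Om B, w * (u2 * (t2 * b2) * (u * (t * b))) ∈ 𝐂(A1) ∧ ∀ e ∈ Om B ⊔ Om A1, e ≠ 1 →
      ∃ P ∈ D, e * (w * (u2 * (t2 * b2) * (u * (t * b)))) ∈ Om P := by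
  have pB := h.pB
  obtain ⟨g, hg, e⟩ := h.l2.transH h.sq (mem_sup_left (pB.sq_mem r.hb)) hb1
    (mem_sup_left (pB.sq_mem r2.hb)) hb2
  have hgb := conj_mem_of_mem_normalizer
    (pB.ti.mem_norm (mul_mem r.hb r.hb) hb1 (e ▸ mul_mem r2.hb r2.hb)) r.hb
  have hv : g * b * g⁻¹ * b2 ∈ Om B := mem_Om_of (mul_mem hgb r2.hb) (by
    rw [pB.mul_sq hgb r2.hb, conj_sq, e, pB.ex b2 r2.hb])
  set v := g * b * g⁻¹ * b2 with hvd
  have hc := h.l2.cm_H (mul_mem (h.l1.cV r.hu) (pB.BV r.hb)) r.c2 hg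
  set y := u * (t * b) with hy
  set y2 := u2 * (t2 * b2) with hy2
  have hYB : y2 * y ∈ 𝐂(B) := mul_mem (h.yB r2) (h.yB r)
  have hY1 : y2 * y ∈ 𝐂(Om A1) := mul_mem (h.y1 r2) (h.y1 r)
  have hY2 : y2 * y ∈ 𝐂(Om A2) := mul_mem (h.y2 r2) (h.y2 r)
  have hyy : ⁅y, y2⁆ = 1 := by
    rw [hy2, cm_mul_right, cm_mul_right, mem_cen_iff.1 (h.y1 r) _ r2.hu,
      mem_cen_iff.1 (h.y2 r) _ r2.ht, mem_cen_iff.1 (h.yB r) _ r2.hb]
    simp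
  have hYsq : y2 * y * (y2 * y) = 1 := by
    calc y2 * y * (y2 * y) = y2 * (y * y2 * y⁻¹) * (y * y) := by group
      _ = 1 := by rw [conj_eq_of_cm hyy, h.ysq r, h.ysq r2, one_mul]
  set Y := y2 * y with hY
  have nE := h.symm.UN
  have hr : g * u * g⁻¹ * Y⁻¹ * u2⁻¹ ∈ Om B ⊔ Om A2 := by
    have : g * u * g⁻¹ * Y⁻¹ * u2⁻¹ = ⁅g, u * b⁆ * (u * (b * b2 * v⁻¹ * b⁻¹ * b2⁻¹ *
        (b2 * t⁻¹ * b2⁻¹)) * u⁻¹) * ⁅u, b2⁆ * t2⁻¹ * (u2 * u2)⁻¹ := by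
      rw [hY, hy, hy2, hvd, commutatorElement_def, commutatorElement_def]; group
    rw [this, h.p1.vsq r2.hu, inv_one, mul_one]
    refine mul_mem (mul_mem (mul_mem hc (conj_mem_of_mem_normalizer (nE r.hu) (mul_mem ?_
      (conj_mem_of_mem_normalizer (h.l2.pt1.nrm r2.hb) (mem_sup_right (inv_mem r.ht))))))
      (mem_sup_left (pB.cm_K (h.l1.cV r.hu) r2.hb))) (mem_sup_right (inv_mem r2.ht))
    have : b * b2 * v⁻¹ * b⁻¹ * b2⁻¹ = b * b2 * v⁻¹ * (b * b2)⁻¹ * ⁅b, b2⁆ := by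
      rw [commutatorElement_def]; group
    rw [this, pB.cm1 r.hb r2.hb, mul_one,
      conj_eq_of_mem_centralizer (pB.BV (mul_mem r.hb r2.hb)) (inv_mem hv)]
    exact mem_sup_left (inv_mem hv)
  obtain ⟨v', hv', t', ht', e1⟩ := h.l2.mem_E.1 hr
  have e2 : g * u * g⁻¹ = v' * (t' * u2) * Y := by rw [← mul_assoc v', ← e1]; group
  have hu2 := h.ne_one r2.hb r2.c2 hb2
  have e3 : t' = 1 := by
    refine h.eq_one r2.hu hu2 ht' (cm_of_sq (h.p2.vsq ht') (h.p1.vsq r2.hu) ?_)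
    have c1 : ⁅Y, v' * (t' * u2)⁆ = 1 := by
      rw [cm_mul_right, cm_mul_right, mem_cen_iff.1 hYB _ (Om_le B hv'),
        mem_cen_iff.1 hY2 _ ht', mem_cen_iff.1 hY1 _ r2.hu]
      simp
    have c2 := conj_sq g u
    rw [e2, sq_mul_cm (cm_symm c1), hYsq, h.p1.vsq r.hu,
      sq_mul_cm (mem_cen_iff'.1 (mul_mem (h.l2.cV ht') (h.l1.cV r2.hu)) _ hv'), pB.vsq hv'] at c2
    simpa using c2
  obtain ⟨w, hw, h1⟩ := h.l1.C0 hYB (h.p1.cenV hY1)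
  refine ⟨w, hw, h1, fun e he he1 => h.l1.ptz h.sq (h.F.cj h.l1.hB g) (e := v' * u2 * w⁻¹)
    (mul_mem (mul_mem (mem_sup_left hv') (mem_sup_right r2.hu)) (mem_sup_left (inv_mem hw)))
    (fun e => hu2 (h.l1.VV ?_ r2.hu)) (mul_mem (pB.VC hw) hYB) h1 ?_ he he1⟩
  · have : u2 = v'⁻¹ * (v' * u2 * w⁻¹) * w := by group
    rw [this, e, mul_one]
    exact mul_mem (inv_mem hv') hw
  · rw [← cj_Om]
    convert cj_mem g r.hu using 1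
    rw [e2, e3]; group

theorem exists_two (h : Sp D B A1 A2) :
    ∃ b ∈ B, ∃ b2 ∈ B, b * b ≠ 1 ∧ b2 * b2 ≠ 1 ∧ b * b2 * (b * b2) ≠ 1 := by
  obtain ⟨v, hv, w, hw, h1, h2, h3⟩ := h.pB.four
  obtain ⟨b, hb, rfl⟩ := h.sq v hv
  obtain ⟨b2, hb2, rfl⟩ := h.sq w hw
  refine ⟨b, hb, b2, hb2, h1, h2, fun e => h3 ?_⟩
  rwa [h.pB.mul_sq hb hb2, mul_eq_one_iff_eq_inv, h.pB.vinv hw] at e

end Sp

theorem Fam.mem_X (F : Fam D) (hB : B ∈ D) (hP : P ∈ D) {x : G} (h1 : x ∈ Om P) (h2 : x ∈ 𝐂(B)) :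
    x ∈ XX D B := by
  by_cases e : x = 1
  · rw [e]; exact one_mem _
  rcases F.tri hB hP (Om_le P h1) (centralizer_le_normalizer _ h2) e with rfl | h3 | h3
  · exact le_gen hB (F.pt hB).ab h1
  · exact le_gen hP h3 h1
  · exact absurd (h3.not_cen h1 h2) e

theorem Sp.not_cen (h : Sp D P A1 A2) (hB : B ∈ D) (h1 : P ≤ 𝐂(B)) (h2 : A2 ≤ 𝐂(B)) : False := by
  obtain ⟨b, hb, b2, hb2, n1, n2, n3⟩ := h.exists_two
  obtain ⟨u, t, r⟩ := h.exists_tr hb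
  obtain ⟨u2, t2, r2⟩ := h.exists_tr hb2
  obtain ⟨w, hw, -, h3⟩ := h.key r r2 n1 n2
  have hu := h.ne_one (mul_mem hb hb2) (h.symm.part_mul r2.hu hb r.c2 r2.c2) n3
  have m := mul_mem r.hu r2.hu
  obtain ⟨R, hR, h4⟩ := h3 _ (mem_sup_right m) hu
  have h5 := h.F.Xab hB (h.F.mem_X hB hR h4 (by
    have : u * u2 * (w * (u2 * (t2 * b2) * (u * (t * b)))) = u * (u2 * w * u2⁻¹ * (u2 * u2) *
      (t2 * b2)) * u⁻¹ * (u * u) * (t * b) := by group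
    rw [this, conj_eq_of_cm (cm_symm (h.l1.cmVV hw r2.hu)), h.p1.vsq r.hu, h.p1.vsq r2.hu,
      mul_one, mul_one]
    have c : ⁅u, w * (t2 * b2)⁆ = 1 := mem_cen_iff'.1 (mul_mem (h.l1.symm.cV hw) r2.c1) u r.hu
    rw [conj_eq_of_cm c]
    exact mul_mem (mul_mem (h1 (Om_le P hw)) (mul_mem (h2 (Om_le _ r2.ht)) (h1 hb2)))
      (mul_mem (h2 (Om_le _ r.ht)) (h1 hb))))
  have h6 := centralizer_anti (le_gen (R := fun A => A ≤ 𝐂(B)) h.l2.hB h2) h5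
  have h7 := mul_mem h6 (inv_mem (mul_mem (h.l2.symm.cV hw) (mul_mem (h.y2 r2) (h.y2 r))))
  rw [mul_inv_cancel_right] at h7
  exact hu (h.symm.far (Om_le _ m) (h.p2.cenV h7))

/-- distinct points do not commute -/
theorem Fam.noB (F : Fam D) (hA : A ∈ D) (hB : B ∈ D) (h : A ≤ 𝐂(B)) : A = B := by
  by_contra hne
  have pA := F.pt hA
  have pB := F.pt hB
  obtain ⟨S, hS, h1, h2⟩ := F.notsub hA hB hne
  have pS := F.pt hS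
  obtain ⟨s, hs, hs1⟩ := pS.exists_ne
  have l : Lk D B S := by
    rcases F.tri hB hS (Om_le S hs) (pB.cenV (h1 hs)) hs1 with rfl | e | e
    · exact absurd (le_centralizer_iff.1 ((Om_le A).trans (h.trans pB.CV))) h2
    · exact absurd (F.commX hA hS hB h e) h2
    · exact e
  have h2' : ¬ Om A ≤ 𝐂(Om S) := fun e => h2 (le_centralizer_iff.1 e)
  have far : ∀ t ∈ Om A, t ≠ 1 → t ∉ 𝐍(S) := fun t ht ht1 e => ht1 (F.far hS hA h2' (Om_le A ht) e)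
  have hAX : Om A ≤ XX D B := le_gen hA h
  have cmS : ∀ t ∈ Om A, ∀ u ∈ Om S, ⁅t, u⁆ ∈ 𝐂(Om S) := fun t ht u hu => by
    by_cases hu1 : u = 1
    · rw [hu1, commutatorElement_one_right]; exact one_mem _
    have m := cm_mem_left (hAX ht) (F.XN B (l.symm.VN hu))
    refine l.cenV_of (F.XC B m) (pS.ti.mem_norm_of_comm (Om_le S hu) hu1 (cm_symm ?_))
    rw [commutatorElement_def u, mul_inv_eq_one]
    calc u * ⁅t, u⁆ * u⁻¹ = u * t * u * t⁻¹ * (u * u)⁻¹ := by rw [commutatorElement_def]; group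
      _ = ⁅t, u⁆⁻¹ := by rw [pS.vsq hu, commutatorElement_inv, commutatorElement_def, pS.vinv hu]; group
      _ = _ := inv_eq_of_mul_eq_one_right (F.Xsq hB m)
  have lx : ∀ t ∈ Om A, t ≠ 1 → S ^ᶜ t ≤ 𝐂(S) ∨ ∃ P, Lk D P S ∧ P ≤ 𝐂(B) ∧ Lk D P A ∧
      (∃ p ∈ P, p ∉ Om P ∧ p⁻¹ * t ∈ 𝐍(S)) ∧ ∀ u ∈ Om S, ⁅u, t⁆ ∈ Om P := fun t ht ht1 => by
    have htB := h (Om_le A ht)
    rcases l.lemX (pB.CV htB) (pA.vsq ht) (far t ht ht1) (fun x hx => by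
      obtain ⟨u, hu, rfl⟩ := mem_cj'.1 hx
      have : t * u * t⁻¹ = ⁅t, u⁆ * u := by rw [commutatorElement_def]; group
      rw [this]; exact mul_mem (cmS t ht u hu) (pS.Vab hu)) with
      e | ⟨P, l1, e, h3, ⟨p, hp, hp', h4⟩, -, h5⟩
    · exact Or.inl e
    have k : t ∉ 𝐂(P) := fun e => far t ht ht1 (l1.norm_of_inv e (pA.vsq ht) hp h4)
    have e' : P ≤ 𝐂(B) := by
      rcases e with rfl | e
      · exact absurd htB k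
      · exact e
    refine Or.inr ⟨P, l1, e', ?_, ⟨p, hp, hp', h4⟩,
      h5 (centralizer_anti (le_gen (R := fun A => A ≤ 𝐂(B)) l1.hA e') (F.Xab hB (hAX ht)))⟩
    rcases F.tri l1.hA hA (Om_le A ht) h3 ht1 with rfl | e | e
    · exact absurd (pA.VC ht) k
    · exact absurd (e (Om_le A ht)) k
    · exact e
  by_cases hall : ∀ t ∈ Om A, S ^ᶜ t ≤ 𝐂(S)
  · exact h2' (F.lemN hS hA (le_ncl _ _) (TA.ncl_ab hall) (le_normalizer_ncl _ _))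
  push Not at hall
  obtain ⟨t, ht, h3⟩ := hall
  have ht1 : t ≠ 1 := by rintro rfl; exact h3 (by rw [cj_one]; exact pS.ab)
  obtain ⟨P, l1, h4, l2, ⟨p, hp, hp', h5⟩, h6⟩ := (lx t ht ht1).resolve_left h3
  have pP := l1.pA
  have h7 : ⁅p, t⁆ = p * p := by
    have y1 := pS.sq_K (l.cenV_of (mul_mem (inv_mem (h4 hp)) (h (Om_le A ht))) h5)
    have y2 : p⁻¹ * t * (p⁻¹ * t) = (p * p)⁻¹ * ⁅p, t⁆ := by
      rw [commutatorElement_def, pA.vinv ht]; group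
    rw [y2] at y1
    exact (inv_mul_eq_one.1 (l1.symm.not_cen (mul_mem (inv_mem (pP.sq_mem hp)) (l2.cm_mem hp ht))
      y1)).symm
  have cmt : ∀ t ∈ Om A, t ≠ 1 → ∀ u ∈ Om S, ⁅u, t⁆ = 1 → u = 1 := fun t ht ht1 u hu e => by
    by_contra hu1
    exact far t ht ht1 (pS.ti.mem_norm_of_comm (Om_le S hu) hu1 (cm_symm e))
  obtain ⟨u0, hu0, e0⟩ : ∃ u ∈ Om S, ⁅u, t⁆ = p * p := by
    let f : Om S → Om P := fun u => ⟨⁅(u : G), t⁆, h6 u u.2⟩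
    have hf : Function.Bijective f := by
      rw [Nat.bijective_iff_injective_and_card]
      refine ⟨fun u u' e => Subtype.ext ?_, F.card_Om hS l1.hA⟩
      have e1 : ⁅(u : G), t⁆ = ⁅(u' : G), t⁆ := congrArg Subtype.val e
      rw [← pS.vinv u'.2, ← mul_eq_one_iff_eq_inv]
      refine cmt t ht ht1 _ (mul_mem u.2 u'.2) ?_
      rw [cm_mul_left, conj_eq_of_mem_centralizer (l1.cV u.2) (h6 _ u'.2), e1, pP.vsq (h6 _ u'.2)]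
    obtain ⟨u, hu⟩ := hf.2 ⟨_, pP.sq_mem hp⟩
    exact ⟨u, u.2, congrArg Subtype.val hu⟩
  have hu1 : u0 ≠ 1 := by
    rintro rfl
    exact hp' (mem_Om_of hp (by rw [← e0, commutatorElement_one_left]))
  have h8 : p⁻¹ * u0 ∈ 𝐍(A) := pA.ti.mem_norm_of_comm (Om_le A ht) ht1 (by
    rw [← conj_eq_one_iff (a := p)]
    calc p * ⁅p⁻¹ * u0, t⁆ * p⁻¹ = ⁅u0, t⁆ * ⁅p, t⁆⁻¹ := by simp only [commutatorElement_def]; group
      _ = 1 := by rw [e0, h7, mul_inv_cancel])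
  have h9 : ∀ t' ∈ Om A, ⁅u0, t'⁆ ∈ Om P := fun t' ht' => by
    have m : ⁅u0, t'⁆ ∈ Om P ⊔ Om A := by
      have : ⁅u0, t'⁆ = p * (p⁻¹ * u0 * t' * (p⁻¹ * u0)⁻¹) * p⁻¹ * t'⁻¹ := by
        rw [commutatorElement_def]; group
      rw [this]
      exact mul_mem (conj_mem_of_mem_normalizer (l2.pt1.nrm hp) (mem_sup_right
        (conj_mem_of_mem_normalizer (norm_Om A h8) ht'))) (mem_sup_right (inv_mem ht'))
    obtain ⟨v, hv, t'', ht'', e⟩ := l2.mem_E.1 m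
    have m2 := inv_mem (cmS t' ht' u0 hu0)
    rw [commutatorElement_inv, e] at m2
    have m3 := mul_mem (inv_mem (l1.symm.cV hv)) m2
    rw [inv_mul_cancel_left] at m3
    rwa [e, F.far hS hA h2' (Om_le A ht'') (pS.cenV m3), mul_one]
  refine Sp.not_cen ⟨l1, l2, h2', fun u hu t' ht' => ?_⟩ hB h4 h
  by_cases ht1' : t' = 1
  · rw [ht1', commutatorElement_one_right]; exact one_mem _
  have n : ⁅u0, t'⁆ ≠ 1 := fun e => hu1 (cmt t' ht' ht1' u0 hu0 e)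
  rcases lx t' ht' ht1' with e | ⟨P', l1', -, -, -, e⟩
  · refine absurd (l1.symm.not_cen (h9 t' ht') ?_) n
    exact mul_mem (pS.VC hu0) (e (cj_mem t' (inv_mem (Om_le S hu0)))) |> fun m => by
      convert m using 1
      rw [commutatorElement_def]; group
  · rw [F.ti l1.hA l1'.hA (Om_le P (h9 t' ht')) (Om_le P' (e u0 hu0)) n]
    exact e u hu

end H23.TA
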