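import Mathlib
import Cfsg.Agent.Base
import Cfsg.Agent.Lib.TI2.MaxA

/-!
# Elementary abelian TI-subgroups which are maximal abelian normal in their normalizer, II
-/

set_option autoImplicit false
set_option linter.unusedSectionVars false

namespace H23.TI

open Subgroup H69
open scoped commutatorElement

variable {G : Type*} [Group G] [Finite G] {V P : Subgroup G}

namespace Pk

theorem ab (h : Pk V P) : V ≤ 𝐂(V) := h.le.trans h.cen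

theorem PM (h : Pk V P) : P ≤ 𝐍(V) := h.cen.trans (centralizer_le_normalizer _)

theorem CN (h : Pk V P) : 𝐂(V) ≤ 𝐍(P) := (centralizer_le_normalizer _).trans h.nrm

theorem cent (h : Pk V P) : 𝐂(P) ≤ V := fun m hm =>
  h.zp m (h.stab m (centralizer_anti h.le hm) fun x hx => by
    rw [mem_cen_iff.1 hm x hx]; exact one_mem _) hm

theorem cml (h : Pk V P) {x y z : G} (hx : x ∈ P) (hy : y ∈ P) (hz : z ∈ P) :
    ⁅x * y, z⁆ = ⁅y, z⁆ * ⁅x, z⁆ := by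
  rw [cm_mul_left, conj_eq_of_mem_centralizer (h.cen hx) (h.cm y hy z hz)]

theorem cmr (h : Pk V P) {x y z : G} (hx : x ∈ P) (hy : y ∈ P) (hz : z ∈ P) :
    ⁅x, y * z⁆ = ⁅x, y⁆ * ⁅x, z⁆ := by
  rw [cm_mul_right, conj_eq_of_mem_centralizer (h.cen hy) (h.cm x hx z hz)]

theorem cml_eq (h : Pk V P) {x y z : G} (hx : x ∈ P) (hy : y ∈ P) (hz : z ∈ P)
    (e : ⁅x, z⁆ = ⁅y, z⁆) : ⁅x⁻¹ * y, z⁆ = 1 := by
  have := h.cml hx (mul_mem (inv_mem hx) hy) hz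
  rw [mul_inv_cancel_left, e] at this
  exact (right_eq_mul.1 this)

theorem cmr_eq (h : Pk V P) {x y z : G} (hx : x ∈ P) (hy : y ∈ P) (hz : z ∈ P)
    (e : ⁅z, x⁆ = ⁅z, y⁆) : ⁅z, x⁻¹ * y⁆ = 1 := by
  refine cm_symm (h.cml_eq hx hy hz ?_)
  rw [← commutatorElement_inv, e, commutatorElement_inv]

variable {a k : G}

theorem cen_of (h : Pk V P) (hA : V ^ᶜ a ≤ P) (hne : V ^ᶜ a ≠ V) {u y : G} (hu : u ∈ V ^ᶜ a)
    (hu1 : u ≠ 1) (hy : y ∈ P) (e : ⁅y, u⁆ = 1) : y ∈ 𝐂(V ^ᶜ a) :=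
  mem_cen_iff.2 fun b hb => h.ti.eq_one hne
    (cm_mem_right ((h.ti.cj a).mem_norm_of_comm hu hu1 e) hb) (h.cm y hy b (hA hb))

theorem surj (h : Pk V P) (hA : V ^ᶜ a ≤ P) (hne : V ^ᶜ a ≠ V) {y : G} (hy : y ∈ P)
    (hy' : y ∉ 𝐂(V ^ᶜ a)) {v : G} (hv : v ∈ V) : ∃ u ∈ V ^ᶜ a, ⁅y, u⁆ = v := by
  let f : (V ^ᶜ a : Subgroup G) → V := fun u => ⟨⁅y, u⁆, h.cm y hy u (hA u.2)⟩
  have hf : Function.Bijective f := by
    rw [Nat.bijective_iff_injective_and_card]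
    refine ⟨fun u w e => ?_, card_cj V a⟩
    by_contra huw
    exact hy' (h.cen_of hA hne (mul_mem (inv_mem u.2) w.2)
      (fun h1 => huw (Subtype.ext (inv_mul_eq_one.1 h1))) hy
      (h.cmr_eq (hA u.2) (hA w.2) hy (congrArg Subtype.val e)))
  obtain ⟨u, hu⟩ := hf.2 ⟨v, hv⟩
  exact ⟨u, u.2, congrArg Subtype.val hu⟩

end Pk

/-- two non-commuting conjugates `A = V^a`, `U = V^k` inside `P` -/
structure Two (V P : Subgroup G) (a k : G) : Prop extends Pk V P where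
  hA : V ^ᶜ a ≤ P
  neA : V ^ᶜ a ≠ V
  hU : V ^ᶜ k ≤ P
  neU : V ^ᶜ k ≠ V
  nc : ¬ V ^ᶜ k ≤ 𝐂(V ^ᶜ a)

namespace Two

variable {a k : G}

theorem symm (h : Two V P a k) : Two V P k a :=
  ⟨h.toPk, h.hU, h.neU, h.hA, h.neA, fun h1 => h.nc (le_centralizer_iff.1 h1)⟩

theorem not_cen (h : Two V P a k) {u : G} (hu : u ∈ V ^ᶜ k) (hu1 : u ≠ 1) : u ∉ 𝐂(V ^ᶜ a) :=
  fun h1 => h.nc (le_centralizer_iff.1 fun b hb =>
    h.cen_of h.hU h.neU hu hu1 (h.hA hb) (mem_cen_iff'.1 h1 b hb))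

theorem exists_ne (h : Two V P a k) (x : G) : ∃ v ∈ V ^ᶜ x, v ≠ 1 := by
  refine (Subgroup.bot_or_exists_ne_one _).resolve_left fun h1 => h.neA ?_
  rw [cj_eq_bot_iff.1 h1, cj_bot]

theorem exists_ne' (h : Two V P a k) : ∃ v ∈ V, v ≠ 1 := by
  simpa only [cj_one] using h.exists_ne 1

theorem surj' (h : Two V P a k) {b : G} (hb : b ∈ V ^ᶜ a) (hb1 : b ≠ 1) {v : G} (hv : v ∈ V) :
    ∃ u ∈ V ^ᶜ k, ⁅b, u⁆ = v :=
  h.surj h.hU h.neU (h.hA hb) (h.symm.not_cen hb hb1) hv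

theorem dec (h : Two V P a k) {y : G} (hy : y ∈ P) :
    ∃ u ∈ V ^ᶜ k, u⁻¹ * y ∈ P ⊓ 𝐂(V ^ᶜ a) := by
  obtain ⟨b, hb, hb1⟩ := h.exists_ne a
  obtain ⟨u, hu, e⟩ := h.surj' hb hb1 (h.cm b (h.hA hb) y hy)
  have hm := mul_mem (inv_mem (h.hU hu)) hy
  exact ⟨u, hu, hm, h.cen_of h.hA h.neA hb hb1 hm (cm_symm (h.cmr_eq (h.hU hu) hy (h.hA hb) e))⟩

theorem WP (h : Two V P a k) : V ⊔ V ^ᶜ a ≤ P := sup_le h.le h.hA

theorem mem_W (h : Two V P a k) {w : G} : w ∈ V ⊔ V ^ᶜ a ↔ ∃ v ∈ V, ∃ b ∈ V ^ᶜ a, w = v * b :=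
  mem_sup_of_le_normalizer_left (h.hA.trans h.PM)

theorem VA (h : Two V P a k) : V ≤ 𝐂(V ^ᶜ a) := le_centralizer_iff.1 (h.hA.trans h.cen)

theorem WA (h : Two V P a k) : V ⊔ V ^ᶜ a ≤ 𝐂(V ^ᶜ a) := sup_le h.VA (h.toPk.cj a).ab

theorem cenW (h : Two V P a k) {y : G} (h1 : y ∈ 𝐂(V)) (h2 : y ∈ 𝐂(V ^ᶜ a)) :
    y ∈ 𝐂((V ⊔ V ^ᶜ a : Subgroup G)) := by
  rw [centralizer_sup]; exact ⟨h1, h2⟩

theorem Wab (h : Two V P a k) : V ⊔ V ^ᶜ a ≤ 𝐂((V ⊔ V ^ᶜ a : Subgroup G)) := fun _ hw =>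
  h.cenW (h.cen (h.WP hw)) (h.WA hw)

theorem Wsq (h : Two V P a k) {w : G} (hw : w ∈ V ⊔ V ^ᶜ a) : w * w = 1 := by
  obtain ⟨v, hv, b, hb, rfl⟩ := h.mem_W.1 hw
  have h1 := conj_eq_of_mem_centralizer (h.cen (h.hA hb)) hv
  calc v * b * (v * b) = v * (b * v * b⁻¹) * (b * b) := by group
    _ = 1 := by rw [h1, h.vsq v hv, (h.toPk.cj a).vsq b hb, mul_one]

theorem PW (h : Two V P a k) : P ≤ 𝐍((V ⊔ V ^ᶜ a : Subgroup G)) :=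
  le_normalizer_of_commutator_le_right
    (commutator_le.2 fun x hx w hw => le_sup_left (a := V) (h.cm x hx w (h.WP hw)))

theorem cover (h : Two V P a k) {w : G} (hw : w ∈ V ⊔ V ^ᶜ a) (hwV : w ∉ V) :
    ∃ y ∈ P, w ∈ V ^ᶜ (y * a) := by
  obtain ⟨v, hv, b, hb, rfl⟩ := h.mem_W.1 hw
  have hb1 : b ≠ 1 := by rintro rfl; exact hwV (by simpa using hv)
  obtain ⟨u, hu, e⟩ := h.surj' hb hb1 (V.inv_mem hv)
  refine ⟨u, h.hU hu, ?_⟩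
  rw [← cj_cj]
  have : v * b = u * b * u⁻¹ := by
    rw [← inv_inv v, ← e, commutatorElement_def]; group
  rw [this]
  exact cj_mem u hb

theorem cj_le (h : Two V P a k) {y : G} (hy : y ∈ P) : V ^ᶜ (y * a) ≤ V ⊔ V ^ᶜ a := by
  rw [← cj_cj]
  exact cj_le_of_mem_normalizer le_sup_right (h.PW hy)

theorem cover' (h : Two V P a k) {w : G} (hw : w ∈ V ⊔ V ^ᶜ a) :
    ∃ x, V ^ᶜ x ≤ V ⊔ V ^ᶜ a ∧ w ∈ V ^ᶜ x := by
  by_cases hwV : w ∈ V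
  · exact ⟨1, by rw [cj_one]; exact le_sup_left, by rwa [cj_one]⟩
  · obtain ⟨y, hy, h1⟩ := h.cover hw hwV
    exact ⟨_, h.cj_le hy, h1⟩

theorem cj_cases (h : Two V P a k) {x : G} (hx : V ^ᶜ x ≤ V ⊔ V ^ᶜ a) (hne : V ^ᶜ x ≠ V) :
    ∃ y ∈ P, V ^ᶜ x = V ^ᶜ (y * a) := by
  obtain ⟨w, hw, hw1⟩ := h.exists_ne x
  obtain ⟨y, hy, h1⟩ := h.cover (hx hw) fun h2 => hw1 (h.ti.eq_one hne hw h2)
  exact ⟨y, hy, h.ti.eq_of_mem hw h1 hw1⟩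

theorem mem_V (h : Two V P a k) {w y : G} (hw : w ∈ V ⊔ V ^ᶜ a) (hy : y ∈ P)
    (hy' : y ∉ 𝐂(V ^ᶜ a)) (e : ⁅y, w⁆ = 1) : w ∈ V := by
  obtain ⟨v, hv, b, hb, rfl⟩ := h.mem_W.1 hw
  by_cases hb1 : b = 1
  · simpa [hb1] using hv
  rw [h.cmr hy (h.le hv) (h.hA hb), mem_cen_iff.1 (h.cen hy) v hv, one_mul] at e
  exact absurd (h.cen_of h.hA h.neA hb hb1 hy e) hy'

/-- `Z(P₀) ≤ W` -/
theorem zP0 (h : Two V P a k) {z : G} (hz : z ∈ P ⊓ 𝐂(V ^ᶜ a))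
    (hc : ∀ x ∈ P ⊓ 𝐂(V ^ᶜ a), ⁅z, x⁆ = 1) : z ∈ V ⊔ V ^ᶜ a := by
  obtain ⟨u, hu, hu1⟩ := h.exists_ne k
  obtain ⟨b, hb, e⟩ := h.symm.surj' hu hu1 (h.cm u (h.hU hu) z hz.1)
  have hm := mul_mem (inv_mem (h.hA hb)) hz.1
  have h1 := h.cen_of h.hU h.neU hu hu1 hm (cm_symm (h.cmr_eq (h.hA hb) hz.1 (h.hU hu) e))
  have h2 : b⁻¹ * z ∈ V := by
    refine h.cent (mem_cen_iff.2 fun y hy => ?_)
    obtain ⟨u', hu', h3⟩ := h.dec hy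
    rw [← mul_inv_cancel_left u' y, h.cmr hm (h.hU hu') h3.1, mem_cen_iff.1 h1 u' hu', one_mul,
      h.cml (inv_mem (h.hA hb)) hz.1 h3.1, hc _ h3, one_mul]
    exact mem_cen_iff'.1 h3.2 _ (inv_mem hb)
  rw [← mul_inv_cancel_left b z]
  exact mul_mem (le_sup_right (a := V) hb) (le_sup_left (a := V) h2)

/-- some element normalizing `W` moves `V` -/
theorem exists_move (h : Two V P a k) :
    ∃ x ∈ 𝐍((V ⊔ V ^ᶜ a : Subgroup G)), x ∉ 𝐍(V) := by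
  by_contra hB
  push Not at hB
  have r := h.toPk.cj a
  set A := V ^ᶜ a with hAdef
  set R := P ^ᶜ a with hRdef
  have hVR : V ≤ 𝐍(R) := h.VA.trans r.CN
  have b1 : ∀ v ∈ V, v ≠ 1 → ∀ x ∈ R, ⁅x, v⁆ ∈ A → x ∈ 𝐍(V) ∧ ⁅x, v⁆ = 1 := by
    intro v hv hv1 x hx hc
    have h1 : x * v * x⁻¹ ∈ V ⊔ A := by
      have : x * v * x⁻¹ = ⁅x, v⁆ * v := by rw [commutatorElement_def]; group
      rw [this]
      exact mul_mem (le_sup_right (a := V) hc) (le_sup_left (a := V) hv)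
    obtain ⟨y, hy, h2⟩ := h.cover' h1
    have h3 := h.ti.eq_of_mem (cj_mem x hv) h2 (fun e => hv1 (conj_eq_one_iff.1 e))
    have h4 : x ∈ 𝐍(V) := by
      refine hB x (mem_normalizer_of_cj_le ?_)
      rw [cj_sup, h3, cj_eq_of_mem_normalizer (r.PM hx)]
      exact sup_le hy le_sup_right
    exact ⟨h4, h.ti.eq_one h.neA hc (cm_mem_right h4 hv)⟩
  have b0 : ∀ v ∈ V, (∀ x ∈ R, ⁅x, v⁆ ∈ A) → v = 1 := by
    intro v hv hc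
    by_contra hv1
    exact hv1 (h.ti.eq_one h.neA (r.cent (mem_cen_iff'.2 fun x hx => (b1 v hv hv1 x hx (hc x hx)).2))
      hv)
  have b2 : ∀ v ∈ V, v ∈ R → v = 1 := fun v hv hvR => b0 v hv fun x hx => r.cm x hx v hvR
  have b3 : R ⊓ 𝐍(V) ≤ 𝐂(V) := fun y hy => mem_cen_iff.2 fun v hv =>
    b2 _ (cm_mem_right hy.2 hv) (cm_mem_left hy.1 (hVR hv))
  have b4 : ∀ x ∈ R, ∀ v ∈ V, ⁅x, v⁆ ∈ R ⊓ 𝐍(V) := by
    intro x hx v hv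
    have hc := cm_mem_left hx (hVR hv)
    refine ⟨hc, ?_⟩
    by_cases hv1 : v = 1
    · rw [hv1, commutatorElement_one_right]; exact one_mem _
    refine (b1 v hv hv1 _ hc ?_).1
    have : ⁅⁅x, v⁆, v⁆ = ⁅x, v⁆ * ⁅x, v⁆ := by
      have e := cm_mul_right x v v
      rw [h.vsq v hv, commutatorElement_one_right] at e
      calc ⁅⁅x, v⁆, v⁆ = ⁅x, v⁆ * (v * ⁅x, v⁆ * v⁻¹)⁻¹ := by
            rw [commutatorElement_def ⁅x, v⁆]; group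
        _ = _ := by rw [inv_eq_of_mul_eq_one_left e.symm]
    rw [this]
    exact r.sq _ hc
  have b6 : P ⊓ R ≤ A := by
    intro e he
    have h1 := h.zP0 (z := e) ⟨he.1, r.cen he.2⟩ fun x hx =>
      b2 _ (h.cm e he.1 x hx.1) (cm_mem_left he.2 (r.CN hx.2))
    obtain ⟨v, hv, b, hb, rfl⟩ := h.mem_W.1 h1
    have h2 := b2 v hv (by simpa using R.mul_mem he.2 (R.inv_mem (r.le hb)))
    rwa [h2, one_mul]
  have b7 : ∀ y ∈ R ⊓ 𝐍(V), ∀ p ∈ P ⊓ 𝐂(A), ⁅y, p⁆ ∈ A := fun y hy p hp =>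
    b6 ⟨cm_mem_right (h.nrm hy.2) hp.1, cm_mem_left hy.1 (r.CN hp.2)⟩
  have b8 : ∀ x ∈ R, ∀ p ∈ P ⊓ 𝐂(A), ⁅x, p⁆ ∈ R ⊓ 𝐍(V) := by
    intro x hx p hp
    have hc := cm_mem_left hx (r.CN hp.2)
    obtain ⟨v, hv, hv1⟩ := h.exists_ne'
    refine ⟨hc, (b1 v hv hv1 _ hc ?_).1⟩
    have e1 := conj_eq_of_mem_centralizer (h.cen hp.1) hv
    have : ⁅⁅x, p⁆, v⁆ = x * ⁅⁅x⁻¹, v⁆, p⁆⁻¹ * x⁻¹ := by
      calc ⁅⁅x, p⁆, v⁆ = x * p * x⁻¹ * (p⁻¹ * v * p) * x * p⁻¹ * x⁻¹ * v⁻¹ := by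
            simp only [commutatorElement_def]; group
        _ = x * p * x⁻¹ * v * x * p⁻¹ * x⁻¹ * v⁻¹ := by
            rw [show p⁻¹ * v * p = v by
              simpa using conj_eq_of_mem_centralizer (inv_mem (h.cen hp.1)) hv]
        _ = x * (p * x⁻¹ * v * x * v⁻¹ * p⁻¹ * (p * v * p⁻¹) * x⁻¹ * v⁻¹ * x) * x⁻¹ := by group
        _ = _ := by rw [e1]; simp only [commutatorElement_def]; group
    rw [this]
    exact conj_mem_of_mem_normalizer (r.PM hx) (inv_mem (b7 _ (b4 _ (inv_mem hx) v hv) p hp))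
  have b9 : ∀ p ∈ P ⊓ 𝐂(A), p ∈ V ⊔ A := by
    intro p hp
    refine h.zP0 hp fun p' hp' => b0 _ (h.cm p hp.1 p' hp'.1) fun x hx => ?_
    have hN : P ⊓ 𝐂(A) ≤ 𝐍(A) := inf_le_right.trans (centralizer_le_normalizer _)
    have h1 : ⁅⁅R, P ⊓ 𝐂(A)⁆, P ⊓ 𝐂(A)⁆ ≤ A :=
      (commutator_mono (commutator_le.2 b8) le_rfl).trans (commutator_le.2 b7)
    have := three_subgroups hN hN r.PM (by rwa [commutator_comm (P ⊓ 𝐂(A)) R]) h1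
    rw [← commutatorElement_inv]
    exact inv_mem (this (commutator_mem_commutator (commutator_mem_commutator hp hp') hx))
  have b11 : R ⊓ 𝐍(V) ≤ P := by
    intro y hy
    refine h.stab y (b3 hy) fun p hp => ?_
    obtain ⟨u, hu, h1⟩ := h.dec hp
    have hyW := h.cenW (b3 hy) (r.cen hy.1)
    rw [← mul_inv_cancel_left u p, cm_mul_right, mem_cen_iff.1 hyW _ (b9 _ h1), mul_one,
      mul_inv_cancel, mul_one]
    by_cases hu1 : u = 1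
    · rw [hu1, commutatorElement_one_right]; exact one_mem _
    have huP := h.hU hu
    have hyu := conj_mem_of_mem_normalizer (h.nrm hy.2) huP
    have hw : ⁅y, u⁆ ∈ V ⊔ A := by
      refine b9 _ ⟨cm_mem_right (h.nrm hy.2) huP, mem_cen_iff'.2 fun b hb => ?_⟩
      have e1 : ⁅b, y * u * y⁻¹⁆ = ⁅b, u⁆ := by
        rw [← conj_eq_of_mem_centralizer (b3 hy) (h.cm b (h.hA hb) u huP), cm_conj,
          conj_eq_of_mem_centralizer (r.cen hy.1) hb]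
      rw [commutatorElement_def y, h.cmr (h.hA hb) hyu (inv_mem huP), e1,
        ← h.cmr (h.hA hb) huP (inv_mem huP), mul_inv_cancel, commutatorElement_one_right]
    have hu2 := (h.toPk.cj k).vsq u hu
    refine h.mem_V hw huP (h.not_cen hu hu1) (cm_symm (cm_of_sq (h.Wsq hw) hu2 ?_))
    calc ⁅y, u⁆ * u * (⁅y, u⁆ * u) = y * (u * u) * y⁻¹ := by
          rw [commutatorElement_def]; group
      _ = 1 := by rw [hu2]; group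
  obtain ⟨v, hv, hv1⟩ := h.exists_ne'
  exact hv1 (b0 v hv fun x hx => b6 ⟨b11 (b4 x hx v hv), (b4 x hx v hv).1⟩)

theorem exists_swap (h : Two V P a k) :
    ∃ x ∈ 𝐍((V ⊔ V ^ᶜ a : Subgroup G)), V ^ᶜ x = V ^ᶜ a := by
  obtain ⟨x, hx, hx'⟩ := h.exists_move
  obtain ⟨y, hy, e⟩ := h.cj_cases (cj_le_of_mem_normalizer le_sup_left hx)
    (fun e => hx' (cj_eq_self_iff.1 e))
  refine ⟨y⁻¹ * x, mul_mem (inv_mem (h.PW hy)) hx, ?_⟩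
  rw [← cj_cj, e, cj_cj, inv_mul_cancel_left]

end Two

theorem cj_eq_of_cj_eq {V N : Subgroup G} (h : 𝐍(V) ≤ 𝐍(N)) {x a : G} (e : V ^ᶜ x = V ^ᶜ a) :
    N ^ᶜ x = N ^ᶜ a := by
  have h1 : a⁻¹ * x ∈ 𝐍(V) := by
    rw [← cj_eq_self_iff, ← cj_cj, e, cj_cj_inv]
  rw [← mul_inv_cancel_left a x, ← cj_cj, cj_eq_of_mem_normalizer (h h1)]

end H23.TI
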