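import Mathlib
import Cfsg.Agent.Base
import Cfsg.Agent.Lib.TI2.MaxB
import Cfsg.Agent.Lib.Push.NatApi

/-!
# Elementary abelian TI-subgroups which are maximal abelian normal in their normalizer, III
-/

set_option autoImplicit false
set_option linter.unusedSectionVars false

namespace H23.TI

open Subgroup H69 Matrix
open scoped commutatorElement MatrixGroups

variable {G : Type*} [Group G] [Finite G] {V P : Subgroup G} {a k : G}

namespace Two

theorem W_le_cj (h : Two V P a k) {N : Subgroup G} (hN : 𝐍(V) ≤ 𝐍(N)) (hP : P ≤ N) :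
    V ⊔ V ^ᶜ a ≤ N ^ᶜ a := by
  obtain ⟨x, hx, e⟩ := h.exists_swap
  rw [← cj_eq_of_cj_eq hN e, ← cj_eq_of_mem_normalizer hx]
  exact cj_mono x (h.WP.trans hP)

theorem HW (h : Two V P a k) : P ⊔ P ^ᶜ a ≤ 𝐍((V ⊔ V ^ᶜ a : Subgroup G)) := by
  obtain ⟨x, hx, e⟩ := h.exists_swap
  refine sup_le h.PW ?_
  rw [← cj_eq_of_cj_eq h.nrm e, ← cj_eq_of_mem_normalizer hx, ← cj_normalizer]
  exact cj_mono x h.PW

theorem exists_swap' (h : Two V P a k) : ∃ x ∈ P ⊔ P ^ᶜ a, V ^ᶜ x = V ^ᶜ a := by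
  have r := h.toPk.cj a
  have h1 : V ≤ P ^ᶜ a := le_sup_left.trans (h.W_le_cj h.nrm le_rfl)
  obtain ⟨x, hx, hx'⟩ : ∃ x ∈ P ^ᶜ a, x ∉ 𝐍(V) := by
    by_contra hn
    push Not at hn
    obtain ⟨v, hv, hv1⟩ := h.exists_ne'
    exact hv1 (h.ti.eq_one h.neA (r.cent (mem_cen_iff'.2 fun x hx => h.ti.eq_one h.neA
      (r.cm x hx v (h1 hv)) (cm_mem_right (hn x hx) hv))) hv)
  obtain ⟨y, hy, e⟩ := h.cj_cases
    (cj_le_of_mem_normalizer le_sup_left (h.HW (le_sup_right (a := P) hx)))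
    (fun e => hx' (cj_eq_self_iff.1 e))
  refine ⟨y⁻¹ * x, mul_mem (inv_mem (le_sup_left (a := P) hy)) (le_sup_right (a := P) hx), ?_⟩
  rw [← cj_cj, e, cj_cj, inv_mul_cancel_left]

theorem card_W (h : Two V P a k) : Nat.card (V ⊔ V ^ᶜ a : Subgroup G) = Nat.card V ^ 2 := by
  let f : V × (V ^ᶜ a : Subgroup G) → (V ⊔ V ^ᶜ a : Subgroup G) := fun z =>
    ⟨z.1 * z.2, h.mem_W.2 ⟨_, z.1.2, _, z.2.2, rfl⟩⟩
  have hf : Function.Bijective f := by
    constructor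
    · rintro ⟨v, b⟩ ⟨v', b'⟩ e
      have e1 : (v : G) * b = v' * b' := congrArg Subtype.val e
      have e2 : (v' : G)⁻¹ * v = b' * (b : G)⁻¹ := by
        rw [inv_mul_eq_iff_eq_mul, ← mul_assoc, ← e1, mul_inv_cancel_right]
      have e3 := h.ti.eq_one h.neA (e2 ▸ mul_mem b'.2 (inv_mem b.2)) (mul_mem (inv_mem v'.2) v.2)
      refine Prod.ext (Subtype.ext (inv_mul_eq_one.1 e3).symm) (Subtype.ext ?_)
      rw [e2] at e3
      exact (mul_inv_eq_one.1 e3).symm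
    · rintro ⟨w, hw⟩
      obtain ⟨v, hv, b, hb, rfl⟩ := h.mem_W.1 hw
      exact ⟨(⟨v, hv⟩, ⟨b, hb⟩), rfl⟩
  rw [← Nat.card_eq_of_bijective f hf, Nat.card_prod, card_cj, sq]

theorem sl2 (h : Two V P a k) (F : Type*) [Field F] [Finite F] (hF : Nat.card F = Nat.card V) :
    ∃ ρ : (P ⊔ P ^ᶜ a : Subgroup G) →* SL(2, F), Function.Surjective ρ ∧
      ρ.ker = (𝐂((V ⊔ V ^ᶜ a : Subgroup G))).subgroupOf (P ⊔ P ^ᶜ a) ∧
      ∀ v ∈ V, v ≠ 1 → ∀ w ∈ V, w ≠ 1 → ∃ x ∈ P ⊔ P ^ᶜ a, x * v * x⁻¹ = w := by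
  haveI : Fact (Nat.Prime 2) := ⟨Nat.prime_two⟩
  obtain ⟨x, hx, ex⟩ := h.exists_swap'
  have hHW := h.HW
  set W := V ⊔ V ^ᶜ a with hW
  set H := P ⊔ P ^ᶜ a with hH
  have hVW : V ≤ W := le_sup_left
  have hPH : P ≤ H := le_sup_left
  obtain ⟨X, _, _, π, h1, h2, h3, h4⟩ := (H68.Push.isSec_bot hHW h.Wab).exists_model
  simp only [mem_bot] at h3
  have hπ1 : π 1 = 0 := (h3 1 W.one_mem).2 rfl
  have hπinv : ∀ v ∈ W, π v⁻¹ = - π v := fun v hv => by
    rw [eq_neg_iff_add_eq_zero, ← h1 _ (W.inv_mem hv) _ hv, inv_mul_cancel, hπ1]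
  have hinj : ∀ u ∈ W, ∀ v ∈ W, π u = π v → u = v := fun u hu v hv e => by
    rw [← mul_inv_eq_one, ← h3 _ (W.mul_mem hu (W.inv_mem hv)), h1 _ hu _ (W.inv_mem hv),
      hπinv v hv, e, add_neg_cancel]
  have hsub : ∀ (y : H), ∀ v ∈ W, y • π v - π v = π ⁅(y : G), v⁆ := fun y v hv => by
    rw [h4 y v hv, commutatorElement_def,
      h1 _ (conj_mem_of_mem_normalizer (hHW y.2) hv) _ (W.inv_mem hv), hπinv v hv, sub_eq_add_neg]
  have hsm : ∀ (y : H), ∀ v ∈ W, y • π v = π v ↔ ⁅(y : G), v⁆ = 1 := fun y v hv => by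
    rw [← sub_eq_zero, hsub y v hv, h3 _ (cm_mem_right (hHW y.2) hv)]
  let Y : AddSubgroup X :=
    { carrier := {z | ∃ v ∈ V, π v = z}
      zero_mem' := ⟨1, one_mem _, hπ1⟩
      add_mem' := by
        rintro _ _ ⟨u, hu, rfl⟩ ⟨v, hv, rfl⟩
        exact ⟨u * v, mul_mem hu hv, h1 u (hVW hu) v (hVW hv)⟩
      neg_mem' := by
        rintro _ ⟨u, hu, rfl⟩
        exact ⟨u⁻¹, inv_mem hu, hπinv u (hVW hu)⟩ }
  have hY : ∀ v ∈ W, π v ∈ Y ↔ v ∈ V := fun v hv =>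
    ⟨by rintro ⟨u, hu, e⟩; rwa [← hinj u (hVW hu) v hv e], fun hv' => ⟨v, hv', rfl⟩⟩
  have cY : Nat.card Y = Nat.card V := by
    have := H68.Push.card_model (D := ⊥) h1 h2 (by simpa only [mem_bot] using h3) bot_le hVW hY
    simpa using this
  have cX : Nat.card X = Nat.card V ^ 2 := by
    have := H68.Push.card_model (D := ⊥) (Y := ⊤) h1 h2 (by simpa only [mem_bot] using h3) bot_le
      le_rfl (fun v hv => by simpa using hv)
    rw [← h.card_W, ← hW]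
    simpa using this
  letI := H68.Push.rangeAction (L := H) (V := X)
  let f := (MulAction.toPermHom H X).rangeRestrict
  have hf : Function.Surjective f := MonoidHom.rangeRestrict_surjective _
  have hfs : ∀ (y : H) (v : X), f y • v = y • v := fun _ _ => rfl
  have hf1 : ∀ y : H, f y = 1 ↔ (y : G) ∈ 𝐂(W) := fun y => by
    rw [mem_cen_iff]
    constructor
    · intro e v hv
      rw [← hsm y v hv, ← hfs, e, one_smul]
    · intro e
      refine Subtype.ext (Equiv.ext fun z => ?_)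
      obtain ⟨v, hv, rfl⟩ := h2 z
      exact (hsm y v hv).2 (e v hv)
  set A := (P.subgroupOf H).map f with hA
  have hcA : Nat.card A = Nat.card V := by
    let φ : (V ^ᶜ k : Subgroup G) → A := fun u => ⟨f ⟨u, hPH (h.hU u.2)⟩, _, h.hU u.2, rfl⟩
    have hφ : Function.Bijective φ := by
      constructor
      · intro u u' e
        have e1 : f ⟨u, hPH (h.hU u.2)⟩ = f ⟨u', hPH (h.hU u'.2)⟩ := congrArg Subtype.val e
        rw [← inv_mul_eq_one, ← map_inv, ← map_mul, hf1] at e1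
        by_contra hne
        exact h.not_cen (mul_mem (inv_mem u.2) u'.2)
          (fun h5 => hne (Subtype.ext (inv_mul_eq_one.1 h5)))
          (centralizer_anti le_sup_right e1)
      · rintro ⟨_, y, hy, rfl⟩
        obtain ⟨u, hu, h5⟩ := h.dec hy
        refine ⟨⟨u, hu⟩, Subtype.ext ?_⟩
        change f _ = f y
        rw [← inv_mul_eq_one, ← map_inv, ← map_mul, hf1]
        exact h.cenW (h.cen h5.1) h5.2
    rw [← Nat.card_eq_of_bijective φ hφ, card_cj]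
  have hS : H68.Push.Spread 2 A ((𝐍(V).subgroupOf H).map f) Y (f ⟨x, hx⟩) :=
    { fix := by
        rintro _ ⟨y, hy, rfl⟩ _ ⟨v, hv, rfl⟩
        exact (hsm y v (hVW hv)).2 (mem_cen_iff.1 (h.cen hy) v hv)
      quad := by
        rintro _ ⟨y, hy, rfl⟩ z
        obtain ⟨v, hv, rfl⟩ := h2 z
        rw [hfs, hsub y v hv]
        exact ⟨_, h.cm y hy v (h.WP hv), rfl⟩
      reg := by
        rintro _ ⟨y, hy, rfl⟩ hy1 z e
        obtain ⟨v, hv, rfl⟩ := h2 z
        exact ⟨v, h.mem_V hv hy (fun h5 => hy1 ((hf1 y).2 (h.cenW (h.cen hy) h5)))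
          ((hsm y v hv).1 e), rfl⟩
      cardW := cY.trans hcA.symm
      cardV := by rw [cX, hcA]
      one_lt := by
        rw [hcA, Finite.one_lt_card_iff_nontrivial]
        obtain ⟨v, hv, hv1⟩ := h.exists_ne'
        exact ⟨⟨v, hv⟩, 1, fun e => hv1 (congrArg Subtype.val e)⟩
      disj := by
        rintro y hy _ ⟨v, hv, rfl⟩ e
        obtain ⟨y, rfl⟩ := hf y
        rw [hfs, h4 y v (hVW hv), hY _ (conj_mem_of_mem_normalizer (hHW y.2) (hVW hv))] at e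
        by_contra h0
        exact hy ⟨y, h.ti.mem_norm hv (fun h5 => h0 (by rw [h5, hπ1])) e, rfl⟩
      le := map_mono fun y hy => h.PM hy
      notMem := by
        rintro ⟨y, hy, e⟩
        rw [← inv_mul_eq_one, ← map_inv, ← map_mul, hf1] at e
        have h5 : x ∈ 𝐍(V) := by
          have := 𝐍(V).mul_mem hy (centralizer_le_normalizer _ (centralizer_anti hVW e))
          simpa using this
        exact h.neA (ex ▸ cj_eq_of_mem_normalizer h5)
      gen := by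
        rw [hA, ← map_cj, ← Subgroup.map_sup, subgroupOf_cj, cj_eq_of_cj_eq h.nrm ex,
          ← subgroupOf_sup hPH le_sup_right, subgroupOf_self, map_top_of_surjective f hf]
      pow := by
        rintro _ ⟨y, hy, rfl⟩
        rw [← map_pow, hf1, pow_two]
        exact le_centralizer_iff.1 (h.WP.trans h.cen) (h.sq y hy) }
  obtain ⟨ρ, ψ, r1, r2, r3, -, -⟩ := hS.natural F (hF.trans hcA.symm)
  refine ⟨ρ.comp f, r1.comp hf, ?_, fun v hv hv1 w hw hw1 => ?_⟩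
  · ext y
    rw [MonoidHom.mem_ker, mem_subgroupOf, ← hf1, MonoidHom.comp_apply]
    refine ⟨fun e => Subtype.ext (Equiv.ext fun z => ψ.injective ?_), fun e => by rw [e, map_one]⟩
    have := r2 (f y) z
    rw [e] at this
    change ψ (f y • z) = ψ z
    simpa using this
  · have n0 : ∀ v ∈ V, v ≠ 1 → ψ (π v) ≠ 0 := fun v hv hv1 e =>
      hv1 ((h3 v (hVW hv)).1 (ψ.injective (by rw [e, map_zero])))
    obtain ⟨m, hm⟩ := H68.Push.exists_sl_mulVec (n0 v hv hv1) (n0 w hw hw1)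
    obtain ⟨y, rfl⟩ := (r1.comp hf) m
    refine ⟨y, y.2, hinj _ (conj_mem_of_mem_normalizer (hHW y.2) (hVW hv)) _ (hVW hw)
      (ψ.injective ?_)⟩
    rw [← h4 y v (hVW hv), ← hfs, r2, ← hm]
    rfl

end Two

end H23.TI
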